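import Cfsg.Agent.Lib.CharDeep.BrauerDeg.Period

/-!
# Brauer's bound on the degree of a faithful character, the main step

A finite group `H` with `p ∥ |H|`, generated by its elements of order `p`, with a faithful irreducible character
of degree `< (p - 1) / 2`, has order `p`.
-/

set_option autoImplicit false
set_option linter.style.haveILetI false
set_option linter.unusedSectionVars false

namespace Cfsg.Agent.Lib.CharDeep.BrauerDeg

open Cfsg
open Cfsg.Agent.Lib.Blocks.Local Cfsg.Agent.Lib.Blocks.Central Cfsg.Agent.Lib.Blocks.General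
open Cfsg.Agent.Lib.Blocks.Induced
open Cfsg.Agent.Lib.Char.Induced Cfsg.Agent.Lib.Char.Ortho Cfsg.Agent.Lib.Char.Linear
open Cfsg.Agent.Lib.Char.Basic Cfsg.Agent.Lib.Char.GenLattice Cfsg.Agent.Lib.Char.Complete
open Cfsg.Agent.Lib.Char.Degree
open Cfsg.Agent.Lib.ExcP.Gram Cfsg.Agent.Lib.ExcP.Inst Cfsg.Agent.Lib.ExcP.Dual
open Cfsg.Agent.Lib.ModRep.Prime Cfsg.Agent.Lib.ModRep.ThGram Cfsg.Agent.Lib.ModRep.ThIdem
open Cfsg.Agent.Lib.ModRep.ThDeg Cfsg.Agent.Lib.ModRep.Numerics2 Cfsg.Agent.Lib.ModRep.BlockTh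
open scoped ComplexConjugate

universe u

/-- An element on which a faithful character has maximal norm is central. -/
theorem central_of_norm {H : Type u} [Group H] [Finite H] {ψ : H → ℂ} (hψ : IsCharacter H ψ)
    (hfaith : ∀ g, ψ g = ψ 1 → g = 1) {x : H} (h : ‖ψ x‖ = (charDegree ψ : ℝ)) (g : H) : g * x = x * g := by
  obtain ⟨n, ρ, rfl⟩ := hψ
  rw [charDegree_character] at h
  obtain ⟨ω, hω⟩ := (Cfsg.Agent.Lib.Char.Eigen.norm_character_eq_iff_scalar ρ x).mp h
  have h1 : ρ (g * x * g⁻¹) = ρ x := by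
    rw [map_mul, map_mul, hω]
    refine LinearMap.ext fun v => ?_
    have h2 : ρ g (ρ g⁻¹ v) = v := by
      rw [← Module.End.mul_apply, ← map_mul, mul_inv_cancel, map_one, Module.End.one_apply]
    simp only [Module.End.mul_apply, LinearMap.smul_apply, LinearMap.id_apply, map_smul, h2]
  have hc : g * x * g⁻¹ * x⁻¹ = 1 := by
    apply hfaith
    rw [character_eq_one_iff, map_mul, h1, ← map_mul, mul_inv_cancel, map_one]
  have h3 : g * x * g⁻¹ = x := mul_inv_eq_one.mp hc
  exact mul_inv_eq_iff_eq_mul.mp h3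

/-- The main step. -/
theorem core {H : Type u} [Group H] [Finite H] {p : ℕ} [hp : Fact p.Prime] (hp2 : ¬ p ^ 2 ∣ Nat.card H)
    (hdiv : p ∣ Nat.card H) (hgen : Subgroup.closure {u : H | u ^ p = 1} = ⊤) {ψ : H → ℂ}
    (hψ : IsIrrCharacter H ψ) (hfaith : ∀ g, ψ g = ψ 1 → g = 1) (hsmall : 2 * charDegree ψ + 1 < p) :
    Nat.card H = p := by
  classical
  letI := Fintype.ofFinite H
  have hpp : p.Prime := hp.out
  obtain ⟨M, hM⟩ := Cfsg.Agent.Lib.BlockH.Basic.exists_isPModular hpp
  haveI := finite_irrCharacter (G := H)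
  letI := Fintype.ofFinite (IrrCharacter H)
  obtain ⟨S⟩ : Nonempty (Sylow p H) := inferInstance
  have hfac : (Nat.card H).factorization p = 1 := by
    have h2 : 1 ≤ (Nat.card H).factorization p := (hpp.dvd_iff_one_le_factorization Nat.card_pos.ne').mp hdiv
    have h3 : ¬ 2 ≤ (Nat.card H).factorization p := fun h =>
      hp2 ((hpp.pow_dvd_iff_le_factorization Nat.card_pos.ne').mpr h)
    omega
  set Q : Subgroup H := (S : Subgroup H) with hQ
  have hP : Nat.card Q = p := by
    have h1 : Nat.card S = p ^ (Nat.card H).factorization p := S.card_eq_multiplicity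
    rw [hfac, pow_one] at h1
    exact h1
  letI : Fintype (Cn Q) := Fintype.ofFinite _
  letI : Fintype (Nn Q) := Fintype.ofFinite _
  haveI := finite_irrCharacter (G := Cn Q)
  letI := Fintype.ofFinite (IrrCharacter (Cn Q))
  haveI := finite_DD (p := p) (P := Q) hP hp2
  letI : Fintype (DD Q p) := Fintype.ofFinite _
  have hψc := isCharacter_of_isIrrCharacter hψ
  obtain ⟨x₀, hx₀, hne⟩ : ∃ x ∈ Q, ψ x ≠ ψ 1 := by
    have : Nontrivial Q := Finite.one_lt_card_iff_nontrivial.mp (by rw [hP]; exact hpp.one_lt)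
    obtain ⟨x, hx⟩ := exists_ne (1 : Q)
    exact ⟨x, x.2, fun h => hx (Subtype.ext (hfaith _ h))⟩
  obtain ⟨θ, d₀, hθP, hnn⟩ := exists_pair hP hp2 hψc ⟨x₀, hx₀, hne⟩
  obtain ⟨F⟩ := exists_fam hM hP hp2 θ hθP
  let ψI : IrrCharacter H := ⟨ψ, hψ⟩
  obtain ⟨h1, hε, -, -⟩ := small_mult hP hp2 hθP F ψI hsmall.le d₀ hnn
  have hsmall' : 2 * charDegree (F.ν d₀ : H → ℂ) + 1 ≤ p := by rw [h1]; exact hsmall.le
  have hval : ∀ c : Cn Q, ψ c = ob Q d₀.1 (θ : Cn Q → ℂ) c := by
    intro c
    have h2 := form_nu hM hP hp2 hθP F d₀ hsmall' hε d₀ c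
    rwa [h1] at h2
  obtain ⟨f, hf⟩ : ∃ f, Nat.card (Nn Q) = f * Nat.card (Cn Q) := by
    have h2 : Nat.card (Cn Q) ∣ Nat.card (Nn Q) :=
      Subgroup.card_dvd_of_le (Subgroup.centralizer_le_normalizer _)
    obtain ⟨f, hf⟩ := h2
    exact ⟨f, by rw [hf, mul_comm]⟩
  have hone : ψ 1 = (f : ℂ) * (θ : Cn Q → ℂ) 1 := by
    have h2 := hval 1
    rw [ob_one hf] at h2
    simpa using h2
  have hdegf : charDegree ψ = f * charDegree (θ : Cn Q → ℂ) := by
    have h2 := charDegree_natCast hψc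
    have h3 := charDegree_natCast (isCharacter_of_isIrrCharacter θ.2)
    rw [hone, ← h3] at h2
    exact_mod_cast h2
  have hfle : f ≤ charDegree ψ := by
    rw [hdegf]
    exact Nat.le_mul_of_pos_right _ (charDegree_pos θ.2)
  have hf2 : 2 * f + 1 < p := by omega
  obtain ⟨F₀⟩ := exists_fam hM hP hp2 (trv (Cn Q)) trv_ker
  obtain ⟨d', hd'⟩ := exists_pf hM hP hp2 hθP F d₀ hsmall' hε F₀ hf hf2
  -- the kernel condition
  have hker : ∀ ξ : IrrCharacter H, (∀ x ∈ Q, (ξ : H → ℂ) x = (ξ : H → ℂ) 1) → ∀ g, (ξ : H → ℂ) g = (ξ : H → ℂ) 1 := by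
    intro ξ hξ g
    have hξc := isCharacter_of_isIrrCharacter ξ.2
    have hle : Subgroup.closure {u : H | u ^ p = 1} ≤ charKer hξc := by
      rw [Subgroup.closure_le]
      intro u hu
      show (ξ : H → ℂ) u = (ξ : H → ℂ) 1
      by_cases hu1 : u = 1
      · rw [hu1]
      · have hord : orderOf u = p := orderOf_eq_prime hu hu1
        have hcard : Nat.card (Subgroup.zpowers u) = p := by rw [Nat.card_zpowers, hord]
        obtain ⟨x, hx⟩ := exists_conj_of_card hP hp2 hcard
        have hmem : u ∈ Q.map (MulAut.conj x).toMonoidHom := by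
          rw [hx]
          exact Subgroup.mem_zpowers u
        obtain ⟨w, hw, hwu⟩ := Subgroup.mem_map.mp hmem
        rw [← hwu]
        have h2 : (MulAut.conj x).toMonoidHom w = x * w * x⁻¹ := rfl
        rw [h2, isClassFunction_of_isCharacter hξc w x]
        exact hξ w hw
    have hg : g ∈ charKer hξc := hle (by rw [hgen]; trivial)
    exact hg
  have hf1 : f = 1 := by
    rcases princ_count hM hP hp2 F₀ d' hd' hker hf with h | h
    · exact h
    · omega
  -- the normalizer is the centralizer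
  have hNC : ∀ y : Nn Q, (y : H) ∈ Cn Q := by
    intro y
    have h2 : Cn Q = Nn Q := by
      apply Subgroup.eq_of_le_of_card_ge (Subgroup.centralizer_le_normalizer _)
      rw [hf, hf1, one_mul]
    rw [h2]
    exact y.2
  have hcjH : ∀ (y : Nn Q) (x : Cn Q), (x : H) ∈ Q → cjH Q y x = x := by
    intro y x hx
    apply Subtype.ext
    have h2 := Subgroup.mem_centralizer_iff.mp (hNC y) (x : H) hx
    simp only [coe_cjH]
    rw [mul_assoc, h2, inv_mul_cancel_left]
  have hvalP : ∀ x : Cn Q, (x : H) ∈ Q → ψ x = ((d₀.1 x : ℂˣ) : ℂ) * ψ 1 := by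
    intro x hx
    rw [hval x, hone, hf1]
    simp only [ob, hcjH _ x hx, Finset.sum_const, Finset.card_univ, ← Nat.card_eq_fintype_card, hf, hf1, one_mul,
      nsmul_eq_mul, tw]
    rw [hθP x hx]
    have hC := card_ne_zero_Cn (P := Q)
    push_cast
    field_simp
  have hcentral : ∀ x ∈ Q, ∀ g : H, g * x = x * g := by
    intro x hx g
    apply central_of_norm hψc hfaith _ g
    have hxC : x ∈ Cn Q := le_centralizer hP hx
    have h2 := hvalP ⟨x, hxC⟩ hx
    have h3 : ((d₀.1 ⟨x, hxC⟩ : ℂˣ) : ℂ) ^ p = 1 := by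
      have h4 := congrArg Units.val (d₀.2.1 ⟨x, hxC⟩)
      simpa using h4
    have h5 : ‖((d₀.1 ⟨x, hxC⟩ : ℂˣ) : ℂ)‖ = 1 := Complex.norm_eq_one_of_pow_eq_one h3 hpp.ne_zero
    have h6 : ψ x = ((d₀.1 ⟨x, hxC⟩ : ℂˣ) : ℂ) * ψ 1 := h2
    rw [h6, norm_mul, h5, one_mul, ← charDegree_natCast hψc]
    simp
  have hall : ∀ u : H, u ^ p = 1 → u ∈ Q := by
    intro u hu
    by_cases hu1 : u = 1
    · rw [hu1]
      exact Q.one_mem
    · have hord : orderOf u = p := orderOf_eq_prime hu hu1
      have huC : u ∈ Cn Q := by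
        rw [Subgroup.mem_centralizer_iff]
        intro x hx
        exact (hcentral x hx u).symm
      exact mem_of_orderOf_eq hP hp2 huC hord
  have htop : Q = ⊤ := by
    rw [eq_top_iff, ← hgen, Subgroup.closure_le]
    exact fun u hu => hall u hu
  rw [← hP, htop, Subgroup.card_top]

/-- Quotients of a group generated by elements of order `p` by the kernel of a small irreducible character. -/
theorem pow_mem_ker {L : Type u} [Group L] [Finite L] {p : ℕ} [hp : Fact p.Prime] (hp2 : ¬ p ^ 2 ∣ Nat.card L)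
    (hgen : Subgroup.closure {u : L | u ^ p = 1} = ⊤) {ψ : L → ℂ} (hψ : IsIrrCharacter L ψ)
    (hsmall : 2 * charDegree ψ + 1 < p) (a : L) : ψ (a ^ p) = ψ 1 := by
  classical
  have hpp : p.Prime := hp.out
  have hψc := isCharacter_of_isIrrCharacter hψ
  let K := charKer hψc
  let π : L →* L ⧸ K := QuotientGroup.mk' K
  have hπ : Function.Surjective π := QuotientGroup.mk'_surjective K
  obtain ⟨φ, hφ, hφψ⟩ := isIrrCharacter_descend π hπ hψ (fun k hk => by
    rw [QuotientGroup.ker_mk'] at hk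
    exact hk)
  have hφ1 : φ 1 = ψ 1 := by
    have h1 := congrFun hφψ 1
    simpa using h1.symm
  have hfaith : ∀ v, φ v = φ 1 → v = 1 := by
    intro v hv
    obtain ⟨b, rfl⟩ := hπ v
    have h1 : ψ b = ψ 1 := by
      rw [hφ1] at hv
      exact (congrFun hφψ b).trans hv
    have h2 : b ∈ K := h1
    exact (QuotientGroup.eq_one_iff b).mpr h2
  have hdeg : charDegree φ = charDegree ψ := by
    have h1 := charDegree_natCast hψc
    have h2 := charDegree_natCast (isCharacter_of_isIrrCharacter hφ)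
    rw [hφ1] at h2
    have h3 : (charDegree φ : ℂ) = charDegree ψ := by rw [h1, h2]
    exact_mod_cast h3
  have hgenQ : Subgroup.closure {v : L ⧸ K | v ^ p = 1} = ⊤ := by
    rw [eq_top_iff]
    have h1 : (⊤ : Subgroup (L ⧸ K)) = (⊤ : Subgroup L).map π := by
      rw [Subgroup.map_top_of_surjective _ hπ]
    rw [h1, ← hgen, MonoidHom.map_closure]
    apply Subgroup.closure_mono
    rintro _ ⟨u, hu, rfl⟩
    show π u ^ p = 1
    rw [← map_pow, show u ^ p = 1 from hu, map_one]
  have hcardQ : Nat.card (L ⧸ K) ∣ Nat.card L := by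
    rw [← Subgroup.index_eq_card K]
    exact Subgroup.index_dvd_card K
  have hall : ∀ v : L ⧸ K, v ^ p = 1 := by
    by_cases hd : p ∣ Nat.card (L ⧸ K)
    · have h1 := core (H := L ⧸ K) (p := p) (fun h => hp2 (h.trans hcardQ)) hd hgenQ hφ hfaith (by rw [hdeg]; exact hsmall)
      intro v
      have h2 := pow_card_eq_one' (x := v)
      rwa [h1] at h2
    · have h1 : ∀ v : L ⧸ K, v ^ p = 1 → v = 1 := by
        intro v hv
        by_contra hv1
        have hord : orderOf v = p := orderOf_eq_prime hv hv1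
        apply hd
        rw [← hord]
        exact orderOf_dvd_natCard v
      have h2 : Subgroup.closure {v : L ⧸ K | v ^ p = 1} ≤ ⊥ := by
        rw [Subgroup.closure_le]
        intro v hv
        exact h1 v hv
      intro v
      have h3 : v ∈ Subgroup.closure {v : L ⧸ K | v ^ p = 1} := by rw [hgenQ]; trivial
      have h4 := h2 h3
      rw [Subgroup.mem_bot.mp h4, one_pow]
  have h1 := hall (π a)
  rw [← map_pow] at h1
  have h2 : a ^ p ∈ K := (QuotientGroup.eq_one_iff _).mp h1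
  exact h2

end Cfsg.Agent.Lib.CharDeep.BrauerDeg
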