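import Cfsg.Agent.Lib.CharDeep.BrauerDeg.Zz
import Cfsg.Agent.Lib.Wielandt.Fourier

/-!
# Distinctness of periods

Two elements of `P` not conjugate in `N` have distinct periods.  Hence a quadratic equation for the periods
is impossible if there are at least three orbits.
-/

set_option autoImplicit false
set_option linter.style.haveILetI false
set_option linter.unusedSectionVars false

namespace Cfsg.Agent.Lib.CharDeep.BrauerDeg

open Cfsg
open Cfsg.Agent.Lib.Blocks.Local Cfsg.Agent.Lib.Blocks.Central Cfsg.Agent.Lib.Blocks.General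
open Cfsg.Agent.Lib.Blocks.Induced
open Cfsg.Agent.Lib.Char.Induced Cfsg.Agent.Lib.Char.Ortho Cfsg.Agent.Lib.Char.Linear
open Cfsg.Agent.Lib.Char.Basic Cfsg.Agent.Lib.Char.GenLattice Cfsg.Agent.Lib.Char.Complete
open Cfsg.Agent.Lib.ExcP.Gram Cfsg.Agent.Lib.ExcP.Inst Cfsg.Agent.Lib.ExcP.Dual
open Cfsg.Agent.Lib.ModRep.Prime Cfsg.Agent.Lib.ModRep.ThGram Cfsg.Agent.Lib.ModRep.ThIdem
open Cfsg.Agent.Lib.ModRep.ThDeg Cfsg.Agent.Lib.ModRep.Numerics2 Cfsg.Agent.Lib.ModRep.BlockTh
open Cfsg.Agent.Lib.Wielandt.Fourier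
open scoped ComplexConjugate

universe u

variable {G : Type u} [Group G] {p : ℕ} [hp : Fact p.Prime] {P : Subgroup G}

/-- All `p`-th roots of unity are values of the standard character. -/
theorem exists_e_eq {w : ℂ} (hw : w ^ p = 1) : ∃ j : ZMod p, e j = w := by
  have hpp : p.Prime := Fact.out
  have hpos : 0 < p := hpp.pos
  have : NeZero p := ⟨hpos.ne'⟩
  set ζ : ℂ := e (1 : ZMod p) with hζ
  have hζpow : ∀ n : ℕ, e ((n : ZMod p)) = ζ ^ n := by
    intro n
    induction n with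
    | zero => simp [e_zero]
    | succ n ih =>
      rw [Nat.cast_succ, e_add, ih, pow_succ]
  have hprim : IsPrimitiveRoot ζ p := by
    rw [IsPrimitiveRoot.iff_def]
    constructor
    · rw [← hζpow]
      simp [e_zero]
    · intro l hl
      rw [← hζpow] at hl
      have h1 : ∀ b : ZMod p, e ((l : ZMod p) * b) = 1 := by
        intro b
        have := hζpow (l * b.val)
        simp only [Nat.cast_mul, ZMod.natCast_val, ZMod.cast_id', id_eq] at this
        rw [this, pow_mul, ← hζpow, hl, one_pow]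
      by_contra hne
      have hne' : (l : ZMod p) ≠ 0 := by
        rwa [Ne, ZMod.natCast_eq_zero_iff]
      have h2 := sum_e_mul (p := p) ((l : ZMod p))
      simp only [hne', if_false] at h2
      have h3 : ∑ b : ZMod p, e (b * (l : ZMod p)) = ∑ b : ZMod p, (1 : ℂ) :=
        Finset.sum_congr rfl fun b _ => by rw [mul_comm, h1]
      rw [h2] at h3
      simp only [Finset.sum_const, Finset.card_univ, ZMod.card, nsmul_eq_mul, mul_one] at h3
      exact (Nat.cast_ne_zero.mpr hpos.ne') h3.symm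
  obtain ⟨i, -, hi⟩ := hprim.eq_pow_of_pow_eq_one hw
  exact ⟨(i : ZMod p), by rw [hζpow, hi]⟩

theorem cjH_one (x : Cn P) : cjH P 1 x = x := by
  apply Subtype.ext
  simp

section Family

variable [Fintype G] [Fintype (Cn P)] [Fintype (Nn P)]

/-- Non-conjugate elements have different periods. -/
theorem exists_conj_of_eta_eq (hP : Nat.card P = p) (hp2 : ¬ p ^ 2 ∣ Nat.card G) (d₀ : DD P p) {x x' : Cn P}
    (hx : (x : G) ∈ P) (hx1 : x ≠ 1) (hx' : (x' : G) ∈ P) (hx'1 : x' ≠ 1)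
    (h : eta P d₀.1 x = eta P d₀.1 x') : ∃ z : Nn P, cjH P z x = x' := by
  classical
  have hC := card_ne_zero_Cn (P := P)
  have hroot : ∀ w : Cn P, ((d₀.1 w : ℂˣ) : ℂ) ^ p = 1 := by
    intro w
    have h1 := d₀.2.1 w
    have h2 := congrArg (Units.val) h1
    simpa using h2
  choose ι hι using fun z : Nn P => exists_e_eq (hroot (cjH P z x))
  choose ι' hι' using fun z : Nn P => exists_e_eq (hroot (cjH P z x'))
  have hinj : ∀ {a b : Cn P}, (a : G) ∈ P → (b : G) ∈ P → ((d₀.1 a : ℂˣ) : ℂ) = ((d₀.1 b : ℂˣ) : ℂ) → a = b := by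
    intro a b ha hb hab
    exact inj_on hP hp2 d₀.2.1 d₀.2.2 ha hb (Units.ext hab)
  have hone : ((d₀.1 (1 : Cn P) : ℂˣ) : ℂ) = 1 := by simp
  have hne0 : ∀ z, ι z ≠ 0 := by
    intro z h0
    have h1 := hι z
    rw [h0, e_zero, ← hone] at h1
    have h2 := hinj (a := 1) (b := cjH P z x) (by simp) (cjH_mem z hx) h1
    exact cjH_ne_one z hx1 h2.symm
  have hne0' : ∀ z, ι' z ≠ 0 := by
    intro z h0
    have h1 := hι' z
    rw [h0, e_zero, ← hone] at h1
    have h2 := hinj (a := 1) (b := cjH P z x') (by simp) (cjH_mem z hx') h1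
    exact cjH_ne_one z hx'1 h2.symm
  let q : ZMod p → ℚ := fun j => ((Finset.univ.filter (fun z => ι z = j)).card : ℚ) -
    ((Finset.univ.filter (fun z => ι' z = j)).card : ℚ)
  have hsum1 : ∀ (κ : Nn P → ZMod p), ∑ j : ZMod p, ((Finset.univ.filter (fun z => κ z = j)).card : ℂ) * e j =
      ∑ z, e (κ z) := by
    intro κ
    rw [← Finset.sum_fiberwise_of_maps_to (s := Finset.univ) (t := Finset.univ) (g := κ) (fun _ _ => Finset.mem_univ _)]
    refine Finset.sum_congr rfl fun j _ => ?_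
    rw [Finset.sum_congr rfl (g := fun _ => e j), Finset.sum_const, nsmul_eq_mul]
    intro z hz
    rw [(Finset.mem_filter.mp hz).2]
  have hq : ∑ j, ((q j : ℚ) : ℂ) * e j = 0 := by
    have h1 : ∀ j, ((q j : ℚ) : ℂ) * e j = ((Finset.univ.filter (fun z => ι z = j)).card : ℂ) * e j -
        ((Finset.univ.filter (fun z => ι' z = j)).card : ℂ) * e j := by
      intro j
      simp only [q]
      push_cast
      ring
    simp only [h1]
    rw [Finset.sum_sub_distrib, hsum1, hsum1]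
    simp only [hι, hι']
    simp only [eta] at h
    have h2 := mul_left_cancel₀ (inv_ne_zero hC) h
    rw [h2, sub_self]
  have hcon := constant_of_sum_eq_zero q hq (ι' 1) 0
  have hq0 : q 0 = 0 := by
    simp only [q]
    have h1 : Finset.univ.filter (fun z => ι z = 0) = ∅ := by
      ext z
      simpa using hne0 z
    have h2 : Finset.univ.filter (fun z => ι' z = 0) = ∅ := by
      ext z
      simpa using hne0' z
    rw [h1, h2]
    simp
  rw [hq0] at hcon
  have hcard : (Finset.univ.filter (fun z => ι z = ι' 1)).card = (Finset.univ.filter (fun z => ι' z = ι' 1)).card := by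
    have h1 : ((Finset.univ.filter (fun z => ι z = ι' 1)).card : ℚ) =
        ((Finset.univ.filter (fun z => ι' z = ι' 1)).card : ℚ) := by
      have h2 : q (ι' 1) = _ := rfl
      rw [h2] at hcon
      linarith
    exact_mod_cast h1
  have hpos : (Finset.univ.filter (fun z => ι z = ι' 1)).Nonempty := by
    rw [← Finset.card_pos, hcard, Finset.card_pos]
    exact ⟨1, by simp⟩
  obtain ⟨z, hz⟩ := hpos
  refine ⟨z, ?_⟩
  have h1 : ι z = ι' 1 := (Finset.mem_filter.mp hz).2
  have h2 := hι z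
  rw [h1, hι' 1, cjH_one] at h2
  exact hinj (cjH_mem z hx) hx' h2.symm

/-- There are at least three orbits. -/
theorem three_orbits (hP : Nat.card P = p) (hp2 : ¬ p ^ 2 ∣ Nat.card G) [Fintype (DD P p)] (d₀ : DD P p) {f : ℕ}
    (hf : Nat.card (Nn P) = f * Nat.card (Cn P)) (hf2 : 2 * f + 1 < p) :
    ∃ x₁ x₂ x₃ : Cn P, ((x₁ : G) ∈ P ∧ x₁ ≠ 1) ∧ ((x₂ : G) ∈ P ∧ x₂ ≠ 1) ∧ ((x₃ : G) ∈ P ∧ x₃ ≠ 1) ∧
      (∀ z, cjH P z x₁ ≠ x₂) ∧ (∀ z, cjH P z x₁ ≠ x₃) ∧ (∀ z, cjH P z x₂ ≠ x₃) := by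
  classical
  haveI : Fintype P := Fintype.ofFinite _
  let inc : P → Cn P := fun u => ⟨u, le_centralizer hP u.2⟩
  have hinc : Function.Injective inc := by
    intro a b h
    apply Subtype.ext
    have h2 : ((inc a : Cn P) : G) = (inc b : Cn P) := congrArg Subtype.val h
    exact h2
  let Ps : Finset (Cn P) := (Finset.univ.image inc).erase 1
  have hPs : ∀ x, x ∈ Ps ↔ (x : G) ∈ P ∧ x ≠ 1 := by
    intro x
    simp only [Ps, Finset.mem_erase, Finset.mem_image, Finset.mem_univ, true_and]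
    constructor
    · rintro ⟨h1, u, rfl⟩
      exact ⟨u.2, h1⟩
    · rintro ⟨h1, h2⟩
      exact ⟨h2, ⟨⟨x, h1⟩, rfl⟩⟩
  have hcardPs : Ps.card = p - 1 := by
    have h1 : (1 : Cn P) ∈ Finset.univ.image inc := by
      simp only [Finset.mem_image, Finset.mem_univ, true_and]
      exact ⟨1, rfl⟩
    rw [Finset.card_erase_of_mem h1, Finset.card_image_of_injective _ hinc, Finset.card_univ,
      ← Nat.card_eq_fintype_card, hP]
  let O : Cn P → Finset (Cn P) := fun x => Finset.univ.image (fun z : Nn P => cjH P z x)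
  have hO : ∀ x : Cn P, (x : G) ∈ P → (O x).card ≤ f := by
    intro x hx
    rw [← card_orbF hP hp2 d₀ hf]
    have h1 : (O x).card = ((O x).image (fun c => d₀.1 c)).card := by
      symm
      apply Finset.card_image_of_injOn
      intro a ha b hb hab
      obtain ⟨z, -, rfl⟩ := Finset.mem_image.mp (Finset.mem_coe.mp ha)
      obtain ⟨z', -, rfl⟩ := Finset.mem_image.mp (Finset.mem_coe.mp hb)
      exact inj_on hP hp2 d₀.2.1 d₀.2.2 (cjH_mem z hx) (cjH_mem z' hx) hab
    rw [h1]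
    refine (Finset.card_le_card ?_).trans (Finset.card_image_le (f := fun d : DD P p => d.1 x))
    intro w hw
    obtain ⟨c, hc, rfl⟩ := Finset.mem_image.mp hw
    obtain ⟨z, -, rfl⟩ := Finset.mem_image.mp hc
    refine Finset.mem_image.mpr ⟨⟨cj P z d₀.1, cj_isD d₀.2 z⟩, ?_, ?_⟩
    · simp only [orbF, Finset.mem_filter, Finset.mem_univ, true_and]
      exact ⟨z, rfl⟩
    · rfl
  have hpf : 2 * f < p - 1 := by omega
  have hnonempty : Ps.Nonempty := by
    rw [← Finset.card_pos, hcardPs]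
    omega
  obtain ⟨x₁, hx₁⟩ := hnonempty
  obtain ⟨x₂, hx₂, hx₂'⟩ := Finset.exists_mem_notMem_of_card_lt_card
    (show (O x₁).card < Ps.card by
      have := hO x₁ ((hPs x₁).mp hx₁).1
      omega)
  obtain ⟨x₃, hx₃, hx₃'⟩ := Finset.exists_mem_notMem_of_card_lt_card
    (show (O x₁ ∪ O x₂).card < Ps.card by
      have h1 := hO x₁ ((hPs x₁).mp hx₁).1
      have h2 := hO x₂ ((hPs x₂).mp hx₂).1
      have h3 := Finset.card_union_le (O x₁) (O x₂)
      omega)
  refine ⟨x₁, x₂, x₃, (hPs x₁).mp hx₁, (hPs x₂).mp hx₂, (hPs x₃).mp hx₃, ?_, ?_, ?_⟩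
  · intro z hz
    exact hx₂' (Finset.mem_image.mpr ⟨z, Finset.mem_univ _, hz⟩)
  · intro z hz
    exact hx₃' (Finset.mem_union_left _ (Finset.mem_image.mpr ⟨z, Finset.mem_univ _, hz⟩))
  · intro z hz
    exact hx₃' (Finset.mem_union_right _ (Finset.mem_image.mpr ⟨z, Finset.mem_univ _, hz⟩))

/-- A quadratic equation with at most two roots. -/
theorem quad_false {a b c R : ℂ} (ha : a * a + a = R) (hb : b * b + b = R) (hc : c * c + c = R) (hab : a ≠ b)
    (hac : a ≠ c) (hbc : b ≠ c) : False := by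
  have h1 : (a - b) * (a + b + 1) = 0 := by linear_combination ha - hb
  have h2 : (a - c) * (a + c + 1) = 0 := by linear_combination ha - hc
  have h3 := (mul_eq_zero.mp h1).resolve_left (sub_ne_zero.mpr hab)
  have h4 := (mul_eq_zero.mp h2).resolve_left (sub_ne_zero.mpr hac)
  exact hbc (by linear_combination h3 - h4)

/-- The equation of the period is impossible. -/
theorem period_false (hP : Nat.card P = p) (hp2 : ¬ p ^ 2 ∣ Nat.card G) [Fintype (DD P p)] (d₀ : DD P p) {f : ℕ}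
    (hf : Nat.card (Nn P) = f * Nat.card (Cn P)) (hf2 : 2 * f + 1 < p) {R : ℂ} (hR : conj R = R)
    (h : ∀ x : Cn P, (x : G) ∈ P → x ≠ 1 → conj (eta P d₀.1 x) = R - eta P d₀.1 x * conj (eta P d₀.1 x)) : False := by
  have hreal : ∀ x : Cn P, (x : G) ∈ P → x ≠ 1 → eta P d₀.1 x * eta P d₀.1 x + eta P d₀.1 x = R := by
    intro x hx hx1
    have h1 := h x hx hx1
    have h2 := congrArg conj h1
    simp only [map_sub, map_mul, Complex.conj_conj, hR] at h2
    have h3 : eta P d₀.1 x = conj (eta P d₀.1 x) := by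
      linear_combination h2 - h1
    have h4 := h1
    rw [← h3] at h4
    linear_combination h4
  obtain ⟨x₁, x₂, x₃, ⟨h1, h1'⟩, ⟨h2, h2'⟩, ⟨h3, h3'⟩, h12, h13, h23⟩ := three_orbits hP hp2 d₀ hf hf2
  refine quad_false (hreal x₁ h1 h1') (hreal x₂ h2 h2') (hreal x₃ h3 h3') ?_ ?_ ?_
  · intro he
    obtain ⟨z, hz⟩ := exists_conj_of_eta_eq hP hp2 d₀ h1 h1' h2 h2' he
    exact h12 z hz
  · intro he
    obtain ⟨z, hz⟩ := exists_conj_of_eta_eq hP hp2 d₀ h1 h1' h3 h3' he
    exact h13 z hz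
  · intro he
    obtain ⟨z, hz⟩ := exists_conj_of_eta_eq hP hp2 d₀ h2 h2' h3 h3' he
    exact h23 z hz

end Family

end Cfsg.Agent.Lib.CharDeep.BrauerDeg
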