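import Cfsg.Agent.Lib.ModRep.BlockTh
import Cfsg.Agent.Lib.D1.Count
import Cfsg.Agent.Lib.D1.CountN
import Cfsg.Agent.Lib.BlockH.Basic

/-!
# Families of characters in blocks of defect one, in a convenient form

`P` has order `p`, `p ^ 2 ∤ |G|`, `C = C_G(P)`, `N = N_G(P)`.  For an irreducible character `θ` of `C` with
`P` in its kernel we record the structure of the block induced by the block of `θ`.
-/

set_option autoImplicit false
set_option linter.style.haveILetI false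
set_option linter.unusedSectionVars false

namespace Cfsg.Agent.Lib.CharDeep.BrauerDeg

open Cfsg
open Cfsg.Agent.Lib.Blocks.Local Cfsg.Agent.Lib.Blocks.Central Cfsg.Agent.Lib.Blocks.General
open Cfsg.Agent.Lib.Blocks.Induced
open Cfsg.Agent.Lib.Char.Induced Cfsg.Agent.Lib.Char.Ortho Cfsg.Agent.Lib.Char.Linear
open Cfsg.Agent.Lib.Char.Basic Cfsg.Agent.Lib.Char.GenLattice Cfsg.Agent.Lib.Char.Complete
open Cfsg.Agent.Lib.ExcP.Gram Cfsg.Agent.Lib.ExcP.Inst Cfsg.Agent.Lib.ExcP.Dual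
open Cfsg.Agent.Lib.ModRep.Prime Cfsg.Agent.Lib.ModRep.ThGram Cfsg.Agent.Lib.ModRep.ThIdem
open Cfsg.Agent.Lib.ModRep.ThDeg Cfsg.Agent.Lib.ModRep.Numerics2 Cfsg.Agent.Lib.ModRep.BlockTh
open scoped ComplexConjugate

universe u

variable {G : Type u} [Group G] {p : ℕ} [hp : Fact p.Prime] {P : Subgroup G}

/-- The twist of a function on the centralizer by a linear character. -/
def tw (κ : Cn P →* ℂˣ) (θ : Cn P → ℂ) : Cn P → ℂ := fun c => ((κ c : ℂˣ) : ℂ) * θ c

/-- The restriction of a function to the centralizer. -/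
def rs (P : Subgroup G) (ξ : G → ℂ) : Cn P → ℂ := fun c => ξ c

theorem rs_cjH {ξ : G → ℂ} (hξ : IsClassFunction G ξ) (y : Nn P) (c : Cn P) :
    rs P ξ (cjH P y c) = rs P ξ c := by
  show ξ ((y : G)⁻¹ * c * y) = ξ c
  have := hξ (c : G) (y : G)⁻¹
  simpa using this

theorem isIrr_tw [Fintype (Cn P)] (κ : Cn P →* ℂˣ) {θ : Cn P → ℂ} (hθ : IsIrrCharacter (Cn P) θ) :
    IsIrrCharacter (Cn P) (tw κ θ) :=
  Cfsg.Agent.Lib.CharZeros.Gallagher.isIrrCharacter_mul_linear
    (isCharacter_of_isIrrCharacter (isIrrCharacter_of_hom κ)) (by simp) hθ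

theorem isChar_rs {ξ : G → ℂ} (hξ : IsCharacter G ξ) : IsCharacter (Cn P) (rs P ξ) :=
  isCharacter_restrict (Cn P) hξ

/-- Conjugates of twists. -/
theorem cjt_tw (y : Nn P) (κ : Cn P →* ℂˣ) (θ : Cn P → ℂ) :
    cjt P y (tw κ θ) = tw (cj P y κ) (cjt P y θ) := rfl

section Inner

variable [Fintype G] [Fintype (Cn P)]

/-- Invariance of inner products with restrictions under conjugation. -/
theorem classInner_cjt_rs {ξ : G → ℂ} (hξ : IsClassFunction G ξ) (y : Nn P) (i : Cn P → ℂ) :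
    classInner (cjt P y i) (rs P ξ) = classInner i (rs P ξ) := by
  classical
  rw [classInner_subgroup_eq, classInner_subgroup_eq]
  congr 1
  have hb : Function.Bijective (cjH P y) :=
    ⟨fun a b hab => by
      apply Subtype.ext
      have h1 : (y : G)⁻¹ * a * y = (y : G)⁻¹ * b * y := congrArg Subtype.val hab
      simpa using h1, cjH_bijective P y⟩
  refine Fintype.sum_bijective (cjH P y) hb _ _ fun c => ?_
  rw [cjt_apply, rs_cjH hξ]

/-- Frobenius reciprocity for `Ws`. -/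
theorem classInner_Ws_eq (θ : Cn P → ℂ) (κ : Cn P →* ℂˣ) {ξ : G → ℂ} (hξ : IsClassFunction G ξ) :
    classInner (Ws P θ κ) ξ = classInner (tw κ θ) (rs P ξ) - classInner θ (rs P ξ) := by
  rw [Ws, classInner_indFun_left (Cn P) _ ξ hξ, ← classInner_sub_left]
  congr 1
  funext c
  simp [fl, tw, sub_mul]

end Inner

section NatMult

variable {H : Type u} [Group H]

/-- The multiplicity as a natural number. -/
noncomputable def nn [Fintype H] (a b : H → ℂ) : ℕ := ⌊(classInner a b).re⌋₊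

theorem nn_cast [Fintype H] {a b : H → ℂ} (ha : IsCharacter H a) (hb : IsCharacter H b) :
    (nn a b : ℂ) = classInner a b := by
  obtain ⟨n, hn⟩ := exists_nat_classInner ha hb
  rw [nn, hn]
  simp

/-- The sum of multiplicities of distinct irreducible constituents is at most the degree. -/
theorem sum_nn_le [Fintype H] [Fintype (IrrCharacter H)] {χ : H → ℂ} (hχ : IsCharacter H χ) {ι : Type*}
    [Fintype ι] (f : ι → IrrCharacter H) (hf : Function.Injective f) {N : ℕ} (hN : χ 1 = N) :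
    ∑ i, nn (f i : H → ℂ) χ ≤ N := by
  classical
  obtain ⟨m, hm⟩ := exists_nat_combination hχ
  have h1 : ∀ i : IrrCharacter H, nn (i : H → ℂ) χ = m i := by
    intro i
    have h2 := nn_cast (isCharacter_of_isIrrCharacter i.2) hχ
    have h3 : classInner (i : H → ℂ) χ = conj (classInner χ (i : H → ℂ)) := (classInner_conj _ _).symm
    rw [h3] at h2
    have h4 : classInner χ (i : H → ℂ) = (m i : ℂ) := by
      rw [hm]
      exact classInner_of_nat_combination m i
    rw [h4, Complex.conj_natCast] at h2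
    exact_mod_cast h2
  have hdeg : ∀ i : IrrCharacter H, 1 ≤ Cfsg.charDegree (i : H → ℂ) := fun i =>
    Cfsg.Agent.Lib.Char.Degree.charDegree_pos i.2
  have h5 : (N : ℂ) = ((∑ i, m i * Cfsg.charDegree (i : H → ℂ) : ℕ) : ℂ) := by
    rw [← hN, hm]
    push_cast
    rw [Finset.sum_apply]
    refine Finset.sum_congr rfl fun i _ => ?_
    rw [Pi.smul_apply, Cfsg.Agent.Lib.Char.Degree.charDegree_natCast (isCharacter_of_isIrrCharacter i.2)]
    simp
  have h6 : N = ∑ i, m i * Cfsg.charDegree (i : H → ℂ) := by exact_mod_cast h5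
  rw [h6]
  simp only [h1]
  calc ∑ i, m (f i) = ∑ j ∈ Finset.univ.image f, m j := by
        rw [Finset.sum_image (fun a _ b _ h => hf h)]
    _ ≤ ∑ j, m j := Finset.sum_le_sum_of_subset (Finset.subset_univ _)
    _ ≤ ∑ j, m j * Cfsg.charDegree (j : H → ℂ) := by
        refine Finset.sum_le_sum fun j _ => ?_
        exact Nat.le_mul_of_pos_right _ (hdeg j)

end NatMult

/-- A pure counting lemma. -/
theorem comb {D Y' : Type*} [Fintype D] [DecidableEq Y'] (ν : D → Y') (ξ : Y') (p n a : ℕ) (b : D → ℕ)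
    (m ε : ℤ) (hcard : Fintype.card D = p - 1) (hn : 2 * n + 1 ≤ p) (hp2 : 2 ≤ p) (hdeg : a + ∑ d, b d ≤ n)
    (hε : ε = 1 ∨ ε = -1) (hb : ∀ d, (b d : ℤ) = a + m + (if ν d = ξ then ε else 0))
    (hm : ∀ d, ν d = ξ → m = 0)
    (hcl : ∀ d₁ d₂, ν d₁ ≠ ν d₂ → 2 * (Finset.univ.filter (fun d => ν d = ν d₂)).card ≤ p - 1)
    (d₁ : D) (hd₁ : b d₁ ≠ 0) : ν d₁ = ξ ∧ ε = 1 ∧ a = 0 ∧ b d₁ = 1 := by
  classical
  -- if `b` is positive everywhere, a contradiction
  have hall : ¬ ∀ d, 1 ≤ b d := by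
    intro h
    have h1 : ∑ d, 1 ≤ ∑ d, b d := Finset.sum_le_sum fun d _ => h d
    simp only [Finset.sum_const, Finset.card_univ, hcard, smul_eq_mul, mul_one] at h1
    omega
  by_cases hξ : ∃ d, ν d = ξ
  · obtain ⟨d₂, hd₂⟩ := hξ
    have hm0 := hm d₂ hd₂
    rw [hm0] at hb
    by_cases hd : ν d₁ = ξ
    · have h1 := hb d₁
      rw [if_pos hd] at h1
      have hε1 : ε = 1 := by
        rcases hε with h | h
        · exact h
        · exfalso
          apply hall
          intro d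
          have h2 := hb d
          rw [h] at h1 h2
          have h3 : (2 : ℤ) ≤ a := by omega
          split_ifs at h2 <;> omega
      have ha : a = 0 := by
        by_contra hne
        apply hall
        intro d
        have h2 := hb d
        rw [hε1] at h2
        split_ifs at h2 <;> omega
      refine ⟨hd, hε1, ha, ?_⟩
      rw [hε1, ha] at h1
      have : (b d₁ : ℤ) = 1 := by simpa using h1
      exact_mod_cast this
    · exfalso
      have h1 := hb d₁
      rw [if_neg hd] at h1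
      have ha : 1 ≤ a := by
        have : b d₁ = a := by
          have : (b d₁ : ℤ) = a := by simpa using h1
          exact_mod_cast this
        omega
      have hne : ν d₁ ≠ ν d₂ := by rw [hd₂]; exact hd
      have h2 := hcl d₁ d₂ hne
      rw [hd₂] at h2
      -- the complement of the class
      have h3 : (Finset.univ.filter (fun d => ν d = ξ)).card + (Finset.univ.filter (fun d => ¬ ν d = ξ)).card
          = p - 1 := by
        rw [Finset.card_filter_add_card_filter_not, Finset.card_univ, hcard]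
      have h4 : (Finset.univ.filter (fun d => ¬ ν d = ξ)).card ≤ ∑ d, b d := by
        calc (Finset.univ.filter (fun d => ¬ ν d = ξ)).card
            = ∑ d ∈ Finset.univ.filter (fun d => ¬ ν d = ξ), 1 := by simp
          _ ≤ ∑ d ∈ Finset.univ.filter (fun d => ¬ ν d = ξ), b d := by
              refine Finset.sum_le_sum fun d hd' => ?_
              have h5 := hb d
              rw [if_neg (Finset.mem_filter.mp hd').2] at h5
              omega
          _ ≤ ∑ d, b d := Finset.sum_le_sum_of_subset (Finset.subset_univ _)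
      omega
  · exfalso
    apply hall
    intro d
    have h1 := hb d₁
    have h2 := hb d
    rw [if_neg (fun h => hξ ⟨_, h⟩)] at h1 h2
    omega

section Family

variable [Fintype G] [Fintype (Cn P)] [Fintype (Nn P)] [Fintype (DD P p)] [Fintype (IrrCharacter G)]
  [Fintype (IrrCharacter (Cn P))]

/-- The data of a block of defect one. -/
structure Fam (M : Ideal AlgInt) (P : Subgroup G) (p : ℕ) (θ : IrrCharacter (Cn P)) where
  B : Set (IrrCharacter G)
  hind : IsInducedBlock M (Cn P) (blockOf M (θ : Cn P → ℂ)) B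
  X : Finset (IrrCharacter G)
  Y : Finset (IrrCharacter G)
  εX : IrrCharacter G → ℤ
  ε : ℤ
  ν : DD P p → IrrCharacter G
  e : ℕ
  hB : ∀ j, j ∈ B ↔ j ∈ X ∪ Y
  hdisj : Disjoint X Y
  hYe : Y.card * e = p - 1
  hεX : ∀ χ ∈ X, εX χ = 1 ∨ εX χ = -1
  hε : ε = 1 ∨ ε = -1
  hν : ∀ a c, ν a = ν c ↔ (rT P p (θ : Cn P → ℂ)) a c
  hY : ∀ ψ, ψ ∈ Y ↔ ∃ d, ν d = ψ
  hval : ∀ d g, Ws P (θ : Cn P → ℂ) d.1 g = - (∑ χ ∈ X, (εX χ : ℂ) * (χ : G → ℂ) g) + (ε : ℂ) * (ν d : G → ℂ) g
  hcls : ∀ b : DD P p, Nat.card {a : DD P p // (rT P p (θ : Cn P → ℂ)) a b} = e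
  hXe : X.card = e
  hdX : ∀ χ ∈ X, (p : ℤ) ∣ (charDegree (χ : G → ℂ) : ℤ) -
    (((Cn P).relIndex (Nn P) / e * charDegree (θ : Cn P → ℂ) : ℕ) : ℤ) * εX χ
  hdν : ∀ d, (p : ℤ) ∣ (charDegree (ν d : G → ℂ) : ℤ) - ε * e *
    (((Cn P).relIndex (Nn P) / e * charDegree (θ : Cn P → ℂ) : ℕ) : ℤ)

/-- Every `θ` with `P` in its kernel has a family. -/
theorem exists_fam {M : Ideal AlgInt} (hM : IsPModular p M) (hP : Nat.card P = p)
    (hp2 : ¬ p ^ 2 ∣ Nat.card G) (θ : IrrCharacter (Cn P))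
    (hθP : ∀ x : Cn P, (x : G) ∈ P → (θ : Cn P → ℂ) x = (θ : Cn P → ℂ) 1) : Nonempty (Fam M P p θ) := by
  classical
  haveI := isPrime_of_pModular hM
  obtain ⟨B, hind⟩ := Cfsg.Agent.Lib.Blocks.Induced.exists_induced hM (isBrauerPair_Cn hP)
    (b := blockOf M (θ : Cn P → ℂ)) ⟨θ, rfl⟩
  have hcount : ∀ S : Finset (IrrCharacter G), (∀ χ, χ ∈ B → ∃ (c : IrrCharacter G → ℤ) (m : ℤ),
      ¬ (p : ℤ) ∣ m ∧ ∀ g, ¬ p ∣ orderOf g → (m : ℂ) * (χ : G → ℂ) g = ∑ ψ ∈ S, (c ψ : ℂ) * (ψ : G → ℂ) g) →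
      Cfsg.Agent.Lib.D1.CountN.ee P (θ : Cn P → ℂ) ≤ S.card := fun S hS =>
    Cfsg.Agent.Lib.D1.Count.card_le hM hP hp2 θ hθP hind _ (fun g => Iff.rfl) _ rfl S hS
  have hC := structure_T (P := P) hM hP hp2 θ hθP hind
    (T := Cfsg.Agent.Lib.D1.CountN.Tt P (θ : Cn P → ℂ)) (fun g => Iff.rfl)
    (e := Cfsg.Agent.Lib.D1.CountN.ee P (θ : Cn P → ℂ)) rfl rfl hcount
  obtain ⟨X, Y, εX, ε, ν, h1, h2, h3, h4, h5, h6, h7, h8, h9, h10, h11⟩ := hC
  have hN := card_stabN_of_relIndex (isClassFunction_of_isIrrCharacter θ.2)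
    (T := Cfsg.Agent.Lib.D1.CountN.Tt P (θ : Cn P → ℂ)) (fun g => Iff.rfl) rfl
  exact ⟨⟨B, hind, X, Y, εX, ε, ν, _, h1, h2, h4, h5, h6, h7, h8, h9,
    fun b => card_class hP hp2 θ.2 hN b, h3, h10, h11⟩⟩

end Family

end Cfsg.Agent.Lib.CharDeep.BrauerDeg
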