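import Cfsg.Agent.Lib.CharDeep.BrauerDeg.Eta

/-!
# Existence of a character of the principal block with no trivial part

If a block with a small exceptional character exists, and `2 f + 1 < p`, there is `d'` such that the restriction
of the exceptional character `ν⁰ d'` of the principal block has no constituent with `P` in the kernel.
-/

set_option autoImplicit false
set_option linter.style.haveILetI false
set_option linter.unusedSectionVars false

namespace Cfsg.Agent.Lib.CharDeep.BrauerDeg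

open Cfsg
open Cfsg.Agent.Lib.Blocks.Local Cfsg.Agent.Lib.Blocks.Central Cfsg.Agent.Lib.Blocks.General
open Cfsg.Agent.Lib.Blocks.Induced
open Cfsg.Agent.Lib.Char.Induced Cfsg.Agent.Lib.Char.Ortho Cfsg.Agent.Lib.Char.Linear
open Cfsg.Agent.Lib.Char.Basic Cfsg.Agent.Lib.Char.GenLattice Cfsg.Agent.Lib.Char.Complete
open Cfsg.Agent.Lib.ExcP.Gram Cfsg.Agent.Lib.ExcP.Inst Cfsg.Agent.Lib.ExcP.Dual
open Cfsg.Agent.Lib.ModRep.Prime Cfsg.Agent.Lib.ModRep.ThGram Cfsg.Agent.Lib.ModRep.ThIdem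
open Cfsg.Agent.Lib.ModRep.ThDeg Cfsg.Agent.Lib.ModRep.Numerics2 Cfsg.Agent.Lib.ModRep.BlockTh
open scoped ComplexConjugate

universe u

variable {G : Type u} [Group G] {p : ℕ} [hp : Fact p.Prime] {P : Subgroup G}

section Family

variable [Fintype G] [Fintype (Cn P)] [Fintype (Nn P)] [Fintype (DD P p)] [Fintype (IrrCharacter G)]
  [Fintype (IrrCharacter (Cn P))] {M : Ideal AlgInt}

theorem dl_eq {θ : Cn P → ℂ} (hθ : IsIrrCharacter (Cn P) θ) (y z : Nn P) :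
    classInner (trv (Cn P) : Cn P → ℂ) (fun c => cjt P y θ c * conj (cjt P z θ c)) = dl P θ y z := by
  classical
  have h1 : classInner (trv (Cn P) : Cn P → ℂ) (fun c => cjt P y θ c * conj (cjt P z θ c)) =
      classInner (cjt P z θ) (cjt P y θ) := by
    simp only [classInner_def, trv_apply, one_mul, map_mul, Complex.conj_conj]
    congr 1
    refine Finset.sum_congr rfl fun c _ => ?_
    ring
  rw [h1, classInner_irr (isIrr_cjt z hθ) (isIrr_cjt y hθ), dl_comm]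
  unfold dl
  split_ifs <;> rfl

/-- Fourier inversion on the `d'`. -/
theorem fourier (hP : Nat.card P = p) (hp2 : ¬ p ^ 2 ∣ Nat.card G) {θ : Cn P → ℂ}
    (hθ : IsIrrCharacter (Cn P) θ) (hθP : ∀ x : Cn P, (x : G) ∈ P → θ x = θ 1) (d d₀ : DD P p)
    (hnon : ∀ y z, cj P y d.1 ≠ cj P z d₀.1) (x : Cn P) :
    ∑ d' : DD P p, classInner (tw d'.1 (trv (Cn P) : Cn P → ℂ)) (fun c => ob P d.1 θ c * conj (ob P d₀.1 θ c)) *
      ((d'.1 x : ℂˣ) : ℂ) = zz P θ d.1 d₀.1 x := by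
  classical
  have h1 : ∀ d' : DD P p, classInner (tw d'.1 (trv (Cn P) : Cn P → ℂ)) (fun c => ob P d.1 θ c * conj (ob P d₀.1 θ c)) =
      ((Nat.card (Cn P) : ℂ)⁻¹) ^ 2 * ∑ y : Nn P, ∑ z : Nn P,
        (if d'.1 = cj P y d.1 * (cj P z d₀.1)⁻¹ then 1 else 0) * dl P θ y z := by
    intro d'
    rw [inner_prod hP hp2 d'.1 d'.2.1 (trv (Cn P)).2 trv_ker d.2.1 d₀.2.1 hθ hθP hθ hθP]
    simp only [dl_eq hθ]
  simp only [h1, zz]
  have h2 : ∀ y z : Nn P, ∑ d' : DD P p, (if d'.1 = cj P y d.1 * (cj P z d₀.1)⁻¹ then (1 : ℂ) else 0) * dl P θ y z *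
      ((d'.1 x : ℂˣ) : ℂ) = dl P θ y z * (((d.1 (cjH P y x) : ℂˣ) : ℂ) * conj ((d₀.1 (cjH P z x) : ℂˣ) : ℂ)) := by
    intro y z
    have hA : IsD P p (cj P y d.1 * (cj P z d₀.1)⁻¹) := by
      refine ⟨fun c => ?_, fun h => ?_⟩
      · rw [MonoidHom.mul_apply, mul_pow, MonoidHom.inv_apply, inv_pow, cj_apply, cj_apply, d.2.1, d₀.2.1]
        simp
      · exact hnon y z ((one_eq_mul_inv_iff _ _).mp h.symm)
    rw [Finset.sum_eq_single (⟨_, hA⟩ : DD P p)]
    · rw [if_pos rfl, one_mul]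
      congr 1
      rw [conj_hom]
      simp [MonoidHom.mul_apply, MonoidHom.inv_apply, cj_apply]
    · intro b _ hb
      rw [if_neg (fun h => hb (Subtype.ext h))]
      simp
    · simp
  simp only [Finset.mul_sum, Finset.sum_mul]
  rw [Finset.sum_comm]
  refine Finset.sum_congr rfl fun y _ => ?_
  rw [Finset.sum_comm]
  refine Finset.sum_congr rfl fun z _ => ?_
  rw [← h2 y z, Finset.mul_sum]
  refine Finset.sum_congr rfl fun d' _ => ?_
  ring

/-- Inner product of the `Ws` with an arbitrary function. -/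
theorem inner_fam' {θ : IrrCharacter (Cn P)} (F : Fam M P p θ) (d : DD P p) (φ : G → ℂ) :
    classInner (Ws P (θ : Cn P → ℂ) d.1) φ =
      - (∑ χ ∈ F.X, (F.εX χ : ℂ) * classInner (χ : G → ℂ) φ) + (F.ε : ℂ) * classInner (F.ν d : G → ℂ) φ := by
  have h1 : Ws P (θ : Cn P → ℂ) d.1 = (- (∑ χ ∈ F.X, (F.εX χ : ℂ) • (χ : G → ℂ))) + (F.ε : ℂ) • (F.ν d : G → ℂ) := by
    funext g
    rw [F.hval d g]
    simp [Finset.sum_apply]
  rw [h1, classInner_add_left, classInner_neg_left, classInner_sum_left, classInner_smul_left]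
  simp only [classInner_smul_left]

/-- Constancy for characters all of whose constituents are "PF". -/
theorem gd_const {F : Fam M P p (trv (Cn P))} {Mm : G → ℂ} (hMm : IsCharacter G Mm)
    (hzero : ∀ θ₁ : IrrCharacter (Cn P), (∀ x : Cn P, (x : G) ∈ P → (θ₁ : Cn P → ℂ) x = (θ₁ : Cn P → ℂ) 1) →
      nn (θ₁ : Cn P → ℂ) (rs P Mm) = 0)
    (H : ∀ d' : DD P p, ¬ PF P (F.ν d' : G → ℂ)) (d₁ d₂ : DD P p) :
    classInner (tw d₁.1 (trv (Cn P) : Cn P → ℂ)) (rs P Mm) = classInner (tw d₂.1 (trv (Cn P) : Cn P → ℂ)) (rs P Mm) := by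
  classical
  obtain ⟨m, hm⟩ := exists_nat_combination hMm
  have hPF : ∀ ξ : IrrCharacter G, m ξ ≠ 0 → PF P (ξ : G → ℂ) := by
    intro ξ hξ θ₁ hθ₁
    have h1 := nn_expand hMm hm (isCharacter_of_isIrrCharacter θ₁.2) (P := P)
    rw [hzero θ₁ hθ₁] at h1
    have h2 := (Finset.sum_eq_zero_iff.mp h1.symm) ξ (Finset.mem_univ _)
    exact (Nat.mul_eq_zero.mp h2).resolve_left hξ
  have hν : ∀ d' : DD P p, classInner (F.ν d' : G → ℂ) Mm = 0 := by
    intro d'
    have h1 : m (F.ν d') = 0 := by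
      by_contra hne
      exact H d' (hPF _ hne)
    have h2 : classInner Mm (F.ν d' : G → ℂ) = (m (F.ν d') : ℂ) := by
      conv_lhs => rw [hm]
      exact classInner_of_nat_combination m _
    rw [h1] at h2
    have h3 := classInner_conj Mm (F.ν d' : G → ℂ)
    rw [h2] at h3
    rw [← h3]
    simp
  have hcf := isClassFunction_of_isCharacter hMm
  have h1 := classInner_Ws_eq (trv (Cn P) : Cn P → ℂ) d₁.1 hcf
  have h2 := classInner_Ws_eq (trv (Cn P) : Cn P → ℂ) d₂.1 hcf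
  rw [inner_fam' F d₁, hν, mul_zero] at h1
  rw [inner_fam' F d₂, hν, mul_zero] at h2
  linear_combination h2 - h1

/-- The values of all the exceptional characters in a block with a small one. -/
theorem form_nu (hM : IsPModular p M) (hP : Nat.card P = p) (hp2 : ¬ p ^ 2 ∣ Nat.card G) {θ : IrrCharacter (Cn P)}
    (hθP : ∀ x : Cn P, (x : G) ∈ P → (θ : Cn P → ℂ) x = (θ : Cn P → ℂ) 1) (F : Fam M P p θ) (d₀ : DD P p)
    (hsmall : 2 * charDegree (F.ν d₀ : G → ℂ) + 1 ≤ p) (hε : F.ε = 1) (d : DD P p) (c : Cn P) :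
    (F.ν d : G → ℂ) c = ob P d.1 (θ : Cn P → ℂ) c := by
  classical
  have hξ := isCharacter_of_isIrrCharacter (F.ν d).2
  have h1 : ∀ d' : DD P p, (F.ν d' : G → ℂ) 1 = ∑ χ ∈ F.X, (F.εX χ : ℂ) * (χ : G → ℂ) 1 := by
    intro d'
    have h2 := F.hval d' 1
    rw [Ws_one, hε] at h2
    simp only [Int.cast_one, one_mul] at h2
    linear_combination -h2
  have hdeg : charDegree (F.ν d : G → ℂ) = charDegree (F.ν d₀ : G → ℂ) := by
    have h2 := Cfsg.Agent.Lib.Char.Degree.charDegree_natCast hξ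
    have h3 := Cfsg.Agent.Lib.Char.Degree.charDegree_natCast (isCharacter_of_isIrrCharacter (F.ν d₀).2)
    rw [h1 d] at h2
    rw [h1 d₀] at h3
    have h4 : (charDegree (F.ν d : G → ℂ) : ℂ) = charDegree (F.ν d₀ : G → ℂ) := by rw [h2, h3]
    exact_mod_cast h4
  have hsmall' : 2 * charDegree (F.ν d : G → ℂ) + 1 ≤ p := by rw [hdeg]; exact hsmall
  have hb : nn (tw d.1 (θ : Cn P → ℂ)) (rs P (F.ν d : G → ℂ)) ≠ 0 := by
    have hjY : F.ν d ∈ F.Y := (F.hY _).mpr ⟨d, rfl⟩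
    have hjX : F.ν d ∉ F.X := fun h => Finset.disjoint_left.mp F.hdisj h hjY
    have h2 := mult_rel F d (F.ν d)
    rw [if_neg hjX, if_pos rfl, hε] at h2
    intro h0
    rw [h0] at h2
    push_cast at h2
    omega
  exact form hP hp2 hξ d θ hθP (fun κ₁ hκ₁ θ₁ hθ₁P => by
    convert mult_eq hM hP hp2 (F.ν d) hsmall' hθP d hb κ₁ hκ₁ θ₁ hθ₁P) c

/-- The main theorem of this file. -/
theorem exists_pf (hM : IsPModular p M) (hP : Nat.card P = p) (hp2 : ¬ p ^ 2 ∣ Nat.card G) {θ : IrrCharacter (Cn P)}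
    (hθP : ∀ x : Cn P, (x : G) ∈ P → (θ : Cn P → ℂ) x = (θ : Cn P → ℂ) 1) (F : Fam M P p θ) (d₀ : DD P p)
    (hsmall : 2 * charDegree (F.ν d₀ : G → ℂ) + 1 ≤ p) (hε : F.ε = 1) (F₀ : Fam M P p (trv (Cn P))) {f : ℕ}
    (hf : Nat.card (Nn P) = f * Nat.card (Cn P)) (hf2 : 2 * f + 1 < p) : ∃ d' : DD P p, PF P (F₀.ν d' : G → ℂ) := by
  classical
  by_contra hH
  push Not at hH
  have hval := form_nu hM hP hp2 hθP F d₀ hsmall hε
  have hp1 : ((p - 1 : ℕ) : ℂ) ≠ 0 := by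
    have := hp.out.two_le
    exact Nat.cast_ne_zero.mpr (by omega)
  refine period_false hP hp2 d₀ hf hf2 (R := ((Finset.univ \ orbF d₀).card : ℂ) * f / ((p - 1 : ℕ) : ℂ)) ?_ ?_
  · simp [map_div₀, map_mul, map_natCast]
  intro x hx hx1
  apply eta_eq hP hp2 (θ : Cn P → ℂ) d₀ hf hx hx1
  intro d hd
  have hnon : ∀ y z, cj P y d.1 ≠ cj P z d₀.1 := by
    intro y z he
    apply hd
    simp only [orbF, Finset.mem_filter, Finset.mem_univ, true_and]
    refine ⟨y⁻¹ * z, ?_⟩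
    rw [cj_mul, ← he, ← cj_mul, inv_mul_cancel, cj_one]
  have hj := isCharacter_of_isIrrCharacter (F.ν d).2
  have hj₀ := isCharacter_of_isIrrCharacter (F.ν d₀).2
  let Mm : G → ℂ := (F.ν d : G → ℂ) * fun g => conj ((F.ν d₀ : G → ℂ) g)
  have hMm : IsCharacter G Mm := isCharacter_mul hj (Cfsg.Agent.Lib.CharX.Conj.isCharacter_conj hj₀)
  have hrs : rs P Mm = fun c => ob P d.1 (θ : Cn P → ℂ) c * conj (ob P d₀.1 (θ : Cn P → ℂ) c) := by
    funext c
    show (F.ν d : G → ℂ) c * conj ((F.ν d₀ : G → ℂ) c) = _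
    rw [hval d c, hval d₀ c]
  have hzero : ∀ θ₁ : IrrCharacter (Cn P), (∀ x : Cn P, (x : G) ∈ P → (θ₁ : Cn P → ℂ) x = (θ₁ : Cn P → ℂ) 1) →
      nn (θ₁ : Cn P → ℂ) (rs P Mm) = 0 := by
    intro θ₁ hθ₁
    have h1 := nn_cast (isCharacter_of_isIrrCharacter θ₁.2) (isChar_rs (P := P) hMm)
    have h2 := inner_prod hP hp2 (1 : Cn P →* ℂˣ) (by simp) θ₁.2 hθ₁ d.2.1 d₀.2.1 θ.2 hθP θ.2 hθP
    rw [tw_one_eq] at h2
    rw [hrs] at h1 ⊢
    rw [h2] at h1
    have h3 : ∀ y z : Nn P, (if (1 : Cn P →* ℂˣ) = cj P y d.1 * (cj P z d₀.1)⁻¹ then (1 : ℂ) else 0) = 0 := by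
      intro y z
      rw [if_neg]
      intro h
      exact hnon y z ((one_eq_mul_inv_iff _ _).mp h)
    simp only [h3, zero_mul, Finset.sum_const_zero, mul_zero] at h1
    exact_mod_cast h1
  have hconst := gd_const hMm hzero hH
  have hx' := fourier hP hp2 θ.2 hθP d d₀ hnon x
  have h1' := fourier hP hp2 θ.2 hθP d d₀ hnon 1
  rw [← hrs] at hx' h1'
  simp only [hconst _ d] at hx' h1'
  rw [← Finset.mul_sum, sum_DD_apply hP hp2 hx hx1] at hx'
  rw [← Finset.mul_sum] at h1'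
  have hcard : Fintype.card (DD P p) = p - 1 := by
    rw [← Nat.card_eq_fintype_card, card_DD hP hp2]
  simp only [map_one, Units.val_one, Finset.sum_const, Finset.card_univ, hcard, nsmul_eq_mul, mul_one] at h1'
  rw [← hx', ← h1']
  ring

end Family

end Cfsg.Agent.Lib.CharDeep.BrauerDeg
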