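import Cfsg.Agent.Lib.CharDeep.BrauerDeg.Prod

/-!
# Characters in the principal block which vanish on the trivial part

`j = ν⁰ d'` in the principal block with no constituent of its restriction having `P` in the kernel.
Then `j` restricted to `C` is the orbit sum of `d'`, and `j · conj j` gives `f = 1` or `p - 1 ≤ 2 f`, with
`f = |N : C|`.
-/

set_option autoImplicit false
set_option linter.style.haveILetI false
set_option linter.unusedSectionVars false

namespace Cfsg.Agent.Lib.CharDeep.BrauerDeg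

open Cfsg
open Cfsg.Agent.Lib.Blocks.Local Cfsg.Agent.Lib.Blocks.Central Cfsg.Agent.Lib.Blocks.General
open Cfsg.Agent.Lib.Blocks.Induced
open Cfsg.Agent.Lib.Char.Induced Cfsg.Agent.Lib.Char.Ortho Cfsg.Agent.Lib.Char.Linear
open Cfsg.Agent.Lib.Char.Basic Cfsg.Agent.Lib.Char.GenLattice Cfsg.Agent.Lib.Char.Complete
open Cfsg.Agent.Lib.ExcP.Gram Cfsg.Agent.Lib.ExcP.Inst Cfsg.Agent.Lib.ExcP.Dual
open Cfsg.Agent.Lib.ModRep.Prime Cfsg.Agent.Lib.ModRep.ThGram Cfsg.Agent.Lib.ModRep.ThIdem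
open Cfsg.Agent.Lib.ModRep.ThDeg Cfsg.Agent.Lib.ModRep.Numerics2 Cfsg.Agent.Lib.ModRep.BlockTh
open scoped ComplexConjugate

universe u

variable {G : Type u} [Group G] {p : ℕ} [hp : Fact p.Prime] {P : Subgroup G}

/-- The trivial irreducible character. -/
noncomputable def trv (H : Type u) [Group H] [Finite H] : IrrCharacter H :=
  ⟨fun _ => 1, by simpa using isIrrCharacter_of_hom (1 : H →* ℂˣ)⟩

@[simp] theorem trv_apply (H : Type u) [Group H] [Finite H] (x : H) : (trv H : H → ℂ) x = 1 := rfl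

/-- Multiplicities from a combination. -/
theorem nn_eq_mult {H : Type u} [Group H] [Fintype H] [Fintype (IrrCharacter H)] {χ : H → ℂ}
    (hχ : IsCharacter H χ) {m : IrrCharacter H → ℕ} (hm : χ = ∑ i, m i • (i : H → ℂ)) (i : IrrCharacter H) :
    nn (i : H → ℂ) χ = m i := by
  have h2 := nn_cast (isCharacter_of_isIrrCharacter i.2) hχ
  have h3 : classInner (i : H → ℂ) χ = conj (classInner χ (i : H → ℂ)) := (classInner_conj _ _).symm
  rw [h3] at h2
  have h4 : classInner χ (i : H → ℂ) = (m i : ℂ) := by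
    rw [hm]
    exact classInner_of_nat_combination m i
  rw [h4, Complex.conj_natCast] at h2
  exact_mod_cast h2

section Family

variable [Fintype G] [Fintype (Cn P)] [Fintype (Nn P)] [Fintype (DD P p)] [Fintype (IrrCharacter G)]
  [Fintype (IrrCharacter (Cn P))] {M : Ideal AlgInt}

/-- No constituent of the restriction has `P` in the kernel. -/
def PF (P : Subgroup G) [Fintype (Cn P)] (ξ : G → ℂ) : Prop :=
  ∀ θ₁ : IrrCharacter (Cn P), (∀ x : Cn P, (x : G) ∈ P → (θ₁ : Cn P → ℂ) x = (θ₁ : Cn P → ℂ) 1) →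
    nn (θ₁ : Cn P → ℂ) (rs P ξ) = 0

theorem cjt_trv (y : Nn P) : cjt P y (trv (Cn P) : Cn P → ℂ) = (trv (Cn P) : Cn P → ℂ) := rfl

theorem trv_ker (x : Cn P) (_ : (x : G) ∈ P) : (trv (Cn P) : Cn P → ℂ) x = (trv (Cn P) : Cn P → ℂ) 1 := rfl

theorem tw_one_eq (θ : Cn P → ℂ) : tw (1 : Cn P →* ℂˣ) θ = θ := by
  funext c
  simp [tw]

/-- Multiplicity-free-ness in the principal block. -/
theorem eps_prin (F : Fam M P p (trv (Cn P))) (d' : DD P p) (hPF : PF P (F.ν d')) : F.ε = 1 := by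
  classical
  have hjY : F.ν d' ∈ F.Y := (F.hY _).mpr ⟨d', rfl⟩
  have hjX : F.ν d' ∉ F.X := fun h => Finset.disjoint_left.mp F.hdisj h hjY
  have h := mult_rel F d' (F.ν d')
  rw [if_neg hjX, if_pos rfl, hPF _ trv_ker] at h
  rcases F.hε with h1 | h1
  · exact h1
  · exfalso
    rw [h1] at h
    push_cast at h

theorem mult_prin (hM : IsPModular p M) (hP : Nat.card P = p) (hp2 : ¬ p ^ 2 ∣ Nat.card G)
    (F : Fam M P p (trv (Cn P))) (d' : DD P p) (hPF : PF P (F.ν d')) (κ₁ : Cn P →* ℂˣ)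
    (hκ₁ : ∀ x, κ₁ x ^ p = 1) (θ₁ : IrrCharacter (Cn P))
    (hθ₁P : ∀ x : Cn P, (x : G) ∈ P → (θ₁ : Cn P → ℂ) x = (θ₁ : Cn P → ℂ) 1) :
    open scoped Classical in
    nn (tw κ₁ (θ₁ : Cn P → ℂ)) (rs P (F.ν d' : G → ℂ)) =
      if ∃ y : Nn P, κ₁ = cj P y d'.1 ∧ (θ₁ : Cn P → ℂ) = cjt P y (trv (Cn P) : Cn P → ℂ) then 1 else 0 := by
  classical
  have hε := eps_prin F d' hPF
  have hjY : F.ν d' ∈ F.Y := (F.hY _).mpr ⟨d', rfl⟩
  have hjX : F.ν d' ∉ F.X := fun h => Finset.disjoint_left.mp F.hdisj h hjY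
  have hmemB : F.ν d' ∈ F.B := by
    rw [F.hB, Finset.mem_union]
    exact Or.inr hjY
  by_cases hκ1 : κ₁ = 1
  · subst hκ1
    rw [tw_one_eq, hPF θ₁ hθ₁P, if_neg]
    rintro ⟨y, hy, -⟩
    apply d'.2.2
    have h1 : cj P y⁻¹ (cj P y d'.1) = cj P y⁻¹ 1 := by rw [← hy]
    rw [← cj_mul, inv_mul_cancel, cj_one] at h1
    rw [h1]
    ext c
    simp [cj_apply]
  · let d₁ : DD P p := ⟨κ₁, hκ₁, hκ1⟩
    by_cases hθ : θ₁ = trv (Cn P)
    · subst hθ
      have h := mult_rel F d₁ (F.ν d')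
      rw [if_neg hjX, hPF _ trv_ker, hε] at h
      have hiff : (∃ y : Nn P, κ₁ = cj P y d'.1 ∧ (trv (Cn P) : Cn P → ℂ) = cjt P y (trv (Cn P) : Cn P → ℂ)) ↔
          F.ν d₁ = F.ν d' := by
        rw [F.hν d₁ d']
        constructor
        · rintro ⟨y, hy, -⟩
          exact ⟨y, fun c => rfl, hy⟩
        · rintro ⟨y, -, hy⟩
          exact ⟨y, hy, rfl⟩
      by_cases hh : F.ν d₁ = F.ν d'
      · rw [if_pos hh] at h
        rw [if_pos (hiff.mpr hh)]
        have h2 : nn (tw d₁.1 (trv (Cn P) : Cn P → ℂ)) (rs P (F.ν d' : G → ℂ)) = 1 := by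
          simp only [Nat.cast_zero, neg_zero, zero_add, add_zero] at h
          exact_mod_cast h
        exact h2
      · rw [if_neg hh] at h
        rw [if_neg (fun h1 => hh (hiff.mp h1))]
        have h2 : nn (tw d₁.1 (trv (Cn P) : Cn P → ℂ)) (rs P (F.ν d' : G → ℂ)) = 0 := by
          simp only [Nat.cast_zero, neg_zero, zero_add, add_zero] at h
          exact_mod_cast h
        exact h2
    · rw [if_neg]
      · obtain ⟨F₁⟩ := exists_fam hM hP hp2 θ₁ hθ₁P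
        have hnotB : F.ν d' ∉ F₁.B := by
          intro hin
          obtain ⟨y, hy⟩ := exists_conj_of_mem hM hP hp2 trv_ker hθ₁P F F₁ hmemB hin
          exact hθ (Subtype.ext hy.symm)
        have hnot : F.ν d' ∉ F₁.X ∧ F.ν d' ∉ F₁.Y := by
          rw [F₁.hB, Finset.mem_union] at hnotB
          exact not_or.mp hnotB
        have h := mult_rel F₁ d₁ (F.ν d')
        have hne : F₁.ν d₁ ≠ F.ν d' := fun h1 => hnot.2 ((F₁.hY _).mpr ⟨d₁, h1⟩)
        rw [if_neg hnot.1, if_neg hne, hPF θ₁ hθ₁P] at h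
        simp only [Nat.cast_zero, neg_zero, zero_add, add_zero] at h
        exact_mod_cast h
      · rintro ⟨y, -, hy⟩
        exact hθ (Subtype.ext hy)

/-- The values of `j` on the centralizer. -/
theorem val_prin (hM : IsPModular p M) (hP : Nat.card P = p) (hp2 : ¬ p ^ 2 ∣ Nat.card G)
    (F : Fam M P p (trv (Cn P))) (d' : DD P p) (hPF : PF P (F.ν d')) (c : Cn P) :
    (F.ν d' : G → ℂ) c = ob P d'.1 (trv (Cn P) : Cn P → ℂ) c :=
  form hP hp2 (isCharacter_of_isIrrCharacter (F.ν d').2) d' (trv (Cn P)) trv_ker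
    (fun κ₁ hκ₁ θ₁ hθ₁P => by
      classical
      convert mult_prin hM hP hp2 F d' hPF κ₁ hκ₁ θ₁ hθ₁P) c

theorem ob_one {f : ℕ} (hf : Nat.card (Nn P) = f * Nat.card (Cn P)) (κ : Cn P →* ℂˣ) {θ : Cn P → ℂ} :
    ob P κ θ 1 = (f : ℂ) * θ 1 := by
  have hC0 : (Nat.card (Cn P) : ℂ) ≠ 0 := Nat.cast_ne_zero.mpr Nat.card_pos.ne'
  have h1 : ∀ y : Nn P, tw κ θ (cjH P y 1) = θ 1 := by
    intro y
    have h2 : cjH P y 1 = 1 := by
      apply Subtype.ext
      simp
    rw [h2]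
    simp [tw]
  simp only [ob, h1, Finset.sum_const, Finset.card_univ, ← Nat.card_eq_fintype_card, hf, nsmul_eq_mul]
  push_cast
  field_simp

theorem one_eq_mul_inv_iff (a b : Cn P →* ℂˣ) : (1 : Cn P →* ℂˣ) = a * b⁻¹ ↔ a = b := by
  constructor
  · intro h
    ext c
    have h1 : (1 : ℂˣ) = a c * (b c)⁻¹ := by
      have h2 := DFunLike.congr_fun h c
      simpa only [MonoidHom.one_apply, MonoidHom.mul_apply, MonoidHom.inv_apply] using h2
    have h3 : a c = b c := by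
      rw [eq_comm, mul_inv_eq_one] at h1
      exact h1
    rw [h3]
  · rintro rfl
    ext c
    simp [MonoidHom.mul_apply, MonoidHom.inv_apply]

/-- The inner product of `ob · conj ob` for the trivial character. -/
theorem inner_Om (hP : Nat.card P = p) (hp2 : ¬ p ^ 2 ∣ Nat.card G) (d' : DD P p) (κ : Cn P →* ℂˣ)
    (hκ : ∀ x, κ x ^ p = 1) (θ₁ : IrrCharacter (Cn P))
    (hθ₁P : ∀ x : Cn P, (x : G) ∈ P → (θ₁ : Cn P → ℂ) x = (θ₁ : Cn P → ℂ) 1) :
    open scoped Classical in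
    classInner (tw κ (θ₁ : Cn P → ℂ)) (fun c => ob P d'.1 (trv (Cn P) : Cn P → ℂ) c *
        conj (ob P d'.1 (trv (Cn P) : Cn P → ℂ) c)) =
      ((Nat.card (Cn P) : ℂ)⁻¹) ^ 2 * ∑ y : Nn P, ∑ z : Nn P,
        (if κ = cj P y d'.1 * (cj P z d'.1)⁻¹ then 1 else 0) *
          (if θ₁ = trv (Cn P) then 1 else 0) := by
  classical
  rw [inner_prod hP hp2 κ hκ θ₁.2 hθ₁P d'.2.1 d'.2.1 (trv (Cn P)).2 trv_ker (trv (Cn P)).2 trv_ker]
  congr 1
  refine Finset.sum_congr rfl fun y _ => Finset.sum_congr rfl fun z _ => ?_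
  congr 1
  have h1 : (fun c => cjt P y (trv (Cn P) : Cn P → ℂ) c * conj (cjt P z (trv (Cn P) : Cn P → ℂ) c)) =
      (trv (Cn P) : Cn P → ℂ) := by
    funext c
    simp [cjt_trv]
  rw [h1, classInner_irr θ₁.2 (trv (Cn P)).2]
  by_cases h2 : θ₁ = trv (Cn P)
  · rw [if_pos h2, if_pos (congrArg _ h2)]
  · rw [if_neg h2, if_neg (fun h => h2 (Subtype.ext h))]

theorem inner_Om_one (hP : Nat.card P = p) (hp2 : ¬ p ^ 2 ∣ Nat.card G) (d' : DD P p) {f : ℕ}
    (hf : Nat.card (Nn P) = f * Nat.card (Cn P)) :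
    classInner (trv (Cn P) : Cn P → ℂ) (fun c => ob P d'.1 (trv (Cn P) : Cn P → ℂ) c *
        conj (ob P d'.1 (trv (Cn P) : Cn P → ℂ) c)) = f := by
  classical
  have h1 := inner_Om hP hp2 d' 1 (by simp) (trv (Cn P)) trv_ker
  rw [tw_one_eq] at h1
  rw [h1]
  simp only [if_true, mul_one]
  have hC0 : (Nat.card (Cn P) : ℂ) ≠ 0 := Nat.cast_ne_zero.mpr Nat.card_pos.ne'
  have h2 : ∀ y : Nn P, ∑ z : Nn P, (if (1 : Cn P →* ℂˣ) = cj P y d'.1 * (cj P z d'.1)⁻¹ then (1 : ℂ) else 0) =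
      (Nat.card (Cn P) : ℂ) := by
    intro y
    rw [Finset.sum_boole]
    have h3 := card_conj_eq hP hp2 d'.2 y
    rw [Nat.card_eq_fintype_card (α := {y_1 // cj P y d'.1 = cj P y_1 d'.1}), Fintype.card_subtype] at h3
    rw [← h3]
    congr 2
    apply Finset.filter_congr
    intro z _
    constructor
    · exact (one_eq_mul_inv_iff _ _).mp
    · exact (one_eq_mul_inv_iff _ _).mpr
  simp only [h2, Finset.sum_const, Finset.card_univ, ← Nat.card_eq_fintype_card, hf, nsmul_eq_mul]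
  push_cast
  field_simp

theorem inner_Om_ne (hP : Nat.card P = p) (hp2 : ¬ p ^ 2 ∣ Nat.card G) (d' : DD P p) (κ : Cn P →* ℂˣ)
    (hκ : ∀ x, κ x ^ p = 1) (θ₁ : IrrCharacter (Cn P))
    (hθ₁P : ∀ x : Cn P, (x : G) ∈ P → (θ₁ : Cn P → ℂ) x = (θ₁ : Cn P → ℂ) 1) (hne : θ₁ ≠ trv (Cn P)) :
    classInner (tw κ (θ₁ : Cn P → ℂ)) (fun c => ob P d'.1 (trv (Cn P) : Cn P → ℂ) c *
        conj (ob P d'.1 (trv (Cn P) : Cn P → ℂ) c)) = 0 := by
  classical
  rw [inner_Om hP hp2 d' κ hκ θ₁ hθ₁P]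
  simp [hne]

/-- Expansion of multiplicities. -/
theorem nn_expand {Ω : G → ℂ} (hΩ : IsCharacter G Ω) {m : IrrCharacter G → ℕ}
    (hm : Ω = ∑ i, m i • (i : G → ℂ)) {i : Cn P → ℂ} (hi : IsCharacter (Cn P) i) :
    nn i (rs P Ω) = ∑ ξ, m ξ * nn i (rs P (ξ : G → ℂ)) := by
  have h1 : rs P Ω = ∑ ξ, m ξ • rs P (ξ : G → ℂ) := by
    funext c
    show Ω c = _
    rw [hm]
    simp [Finset.sum_apply, rs]
  have h2 := nn_cast hi (isChar_rs (P := P) hΩ)
  have h3 : ((nn i (rs P Ω) : ℕ) : ℂ) = ((∑ ξ, m ξ * nn i (rs P (ξ : G → ℂ)) : ℕ) : ℂ) := by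
    rw [h2, h1, classInner_sum_right]
    push_cast
    refine Finset.sum_congr rfl fun ξ _ => ?_
    rw [classInner_nsmul_right, nn_cast hi (isChar_rs (P := P) (isCharacter_of_isIrrCharacter ξ.2))]
  exact_mod_cast h3

/-- The key inequality. -/
theorem key_ineq (hP : Nat.card P = p) (hp2 : ¬ p ^ 2 ∣ Nat.card G) (F : Fam M P p (trv (Cn P)))
    (hε : F.ε = 1)
    (hker : ∀ ξ : IrrCharacter G, (∀ x ∈ P, (ξ : G → ℂ) x = (ξ : G → ℂ) 1) → ∀ g, (ξ : G → ℂ) g = (ξ : G → ℂ) 1)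
    (ξ : IrrCharacter G) (hξ1 : ξ ≠ trv G)
    (hcon : ∀ (κ : Cn P →* ℂˣ), (∀ x, κ x ^ p = 1) → ∀ θ₁ : IrrCharacter (Cn P),
      (∀ x : Cn P, (x : G) ∈ P → (θ₁ : Cn P → ℂ) x = (θ₁ : Cn P → ℂ) 1) → θ₁ ≠ trv (Cn P) →
        nn (tw κ (θ₁ : Cn P → ℂ)) (rs P (ξ : G → ℂ)) = 0) (d : DD P p) :
    nn (trv (Cn P) : Cn P → ℂ) (rs P (ξ : G → ℂ)) ≤ 2 * nn (tw d.1 (trv (Cn P) : Cn P → ℂ)) (rs P (ξ : G → ℂ)) := by
  classical
  have h := mult_rel F d ξ
  rw [hε] at h
  by_cases hX : ξ ∈ F.X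
  · have hY : ξ ∉ F.Y := fun h1 => Finset.disjoint_left.mp F.hdisj hX h1
    have hν : ∀ d₁, F.ν d₁ ≠ ξ := fun d₁ h1 => hY ((F.hY ξ).mpr ⟨d₁, h1⟩)
    rw [if_pos hX, if_neg (hν d)] at h
    rcases F.hεX ξ hX with h1 | h1
    · rw [h1] at h
      by_cases ha : nn (trv (Cn P) : Cn P → ℂ) (rs P (ξ : G → ℂ)) = 1
      · exfalso
        -- every `b` vanishes
        have hb : ∀ d₁ : DD P p, nn (tw d₁.1 (trv (Cn P) : Cn P → ℂ)) (rs P (ξ : G → ℂ)) = 0 := by
          intro d₁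
          have h2 := mult_rel F d₁ ξ
          rw [if_pos hX, if_neg (hν d₁), h1, ha] at h2
          simp only [Nat.cast_one, add_zero, Int.reduceNeg] at h2
          omega
        obtain ⟨m, hm⟩ := exists_nat_combination (isChar_rs (P := P) (isCharacter_of_isIrrCharacter ξ.2))
        have hm0 : ∀ i : IrrCharacter (Cn P), i ≠ trv (Cn P) → m i = 0 := by
          intro i hi
          rw [← nn_eq_mult (isChar_rs (P := P) (isCharacter_of_isIrrCharacter ξ.2)) hm i]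
          obtain ⟨κ, θ₁, hκ, hθ₁, hdec⟩ := exists_decomp hP hp2 i
          have h3 : (i : Cn P → ℂ) = tw κ (θ₁ : Cn P → ℂ) := by
            funext c
            exact hdec c
          rw [h3]
          by_cases hθ₁' : θ₁ = trv (Cn P)
          · subst hθ₁'
            by_cases hκ1 : κ = 1
            · exfalso
              apply hi
              apply Subtype.ext
              rw [h3, hκ1, tw_one_eq]
            · exact hb ⟨κ, hκ, hκ1⟩
          · exact hcon κ hκ θ₁ hθ₁ hθ₁'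
        have hm1 : m (trv (Cn P)) = 1 := by
          rw [← nn_eq_mult (isChar_rs (P := P) (isCharacter_of_isIrrCharacter ξ.2)) hm (trv (Cn P))]
          exact ha
        have hval : ∀ c : Cn P, (ξ : G → ℂ) c = 1 := by
          intro c
          have h4 := congrFun hm c
          rw [Finset.sum_apply, Finset.sum_eq_single (trv (Cn P))] at h4
          · simpa [rs, hm1] using h4
          · intro i _ hi
            simp [hm0 i hi]
          · simp
        have h5 : ∀ g, (ξ : G → ℂ) g = (ξ : G → ℂ) 1 := by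
          apply hker
          intro x hx
          have h6 := hval ⟨x, le_centralizer hP hx⟩
          have h7 := hval 1
          simp only [OneMemClass.coe_one] at h7
          rw [h7]
          exact h6
        have h8 := hval 1
        simp only [OneMemClass.coe_one] at h8
        apply hξ1
        apply Subtype.ext
        funext g
        rw [h5 g, h8]
        rfl
      · simp only [Int.reduceNeg, add_zero] at h
        omega
    · rw [h1] at h
      simp only [Int.reduceNeg, add_zero] at h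
      omega
  · rw [if_neg hX] at h
    have h2 : (0 : ℤ) ≤ (if F.ν d = ξ then (1 : ℤ) else 0) := by
      split_ifs <;> simp
    simp only [neg_zero, add_zero] at h
    omega

/-- The main count. -/
theorem princ_count (hM : IsPModular p M) (hP : Nat.card P = p) (hp2 : ¬ p ^ 2 ∣ Nat.card G)
    (F : Fam M P p (trv (Cn P))) (d' : DD P p) (hPF : PF P (F.ν d'))
    (hker : ∀ ξ : IrrCharacter G, (∀ x ∈ P, (ξ : G → ℂ) x = (ξ : G → ℂ) 1) → ∀ g, (ξ : G → ℂ) g = (ξ : G → ℂ) 1)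
    {f : ℕ} (hf : Nat.card (Nn P) = f * Nat.card (Cn P)) : f = 1 ∨ p - 1 ≤ 2 * f := by
  classical
  have hε := eps_prin F d' hPF
  have hj := isCharacter_of_isIrrCharacter (F.ν d').2
  have hval := val_prin hM hP hp2 F d' hPF
  let Ω : G → ℂ := (F.ν d' : G → ℂ) * fun g => conj ((F.ν d' : G → ℂ) g)
  have hΩ : IsCharacter G Ω := isCharacter_mul hj (Cfsg.Agent.Lib.CharX.Conj.isCharacter_conj hj)
  have hrs : rs P Ω = fun c => ob P d'.1 (trv (Cn P) : Cn P → ℂ) c *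
        conj (ob P d'.1 (trv (Cn P) : Cn P → ℂ) c) := by
    funext c
    show (F.ν d' : G → ℂ) c * conj ((F.ν d' : G → ℂ) c) = _
    rw [hval]
  have hj1 : (F.ν d' : G → ℂ) 1 = f := by
    have h1 := hval 1
    have h2 : ob P d'.1 (trv (Cn P) : Cn P → ℂ) 1 = (f : ℂ) * 1 := ob_one hf d'.1
    rw [h2, mul_one] at h1
    simpa using h1
  have hΩ1 : Ω 1 = ((f ^ 2 : ℕ) : ℂ) := by
    show (F.ν d' : G → ℂ) 1 * conj ((F.ν d' : G → ℂ) 1) = _
    rw [hj1, Complex.conj_natCast]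
    push_cast
    ring
  have hsum := sum_mult_le hP hp2 hΩ hΩ1 (trv (Cn P)) trv_ker
  have hA : nn (trv (Cn P) : Cn P → ℂ) (rs P Ω) = f := by
    have h1 := nn_cast (isCharacter_of_isIrrCharacter (trv (Cn P)).2) (isChar_rs (P := P) hΩ)
    rw [hrs, inner_Om_one hP hp2 d' hf, ← hrs] at h1
    exact_mod_cast h1
  obtain ⟨m, hm⟩ := exists_nat_combination hΩ
  have hm1 : m (trv G) = 1 := by
    have h1 : classInner Ω (trv G : G → ℂ) = (m (trv G) : ℂ) := by
      conv_lhs => rw [hm]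
      exact classInner_of_nat_combination m _
    have h2 : classInner Ω (trv G : G → ℂ) = classInner (F.ν d' : G → ℂ) (F.ν d' : G → ℂ) := by
      simp [classInner_def, Ω]
    rw [h2, classInner_irr (F.ν d').2 (F.ν d').2, if_pos rfl] at h1
    exact_mod_cast h1.symm
  -- expansions
  have hcon : ∀ ξ : IrrCharacter G, m ξ ≠ 0 → ∀ (κ : Cn P →* ℂˣ), (∀ x, κ x ^ p = 1) →
      ∀ θ₁ : IrrCharacter (Cn P), (∀ x : Cn P, (x : G) ∈ P → (θ₁ : Cn P → ℂ) x = (θ₁ : Cn P → ℂ) 1) →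
      θ₁ ≠ trv (Cn P) → nn (tw κ (θ₁ : Cn P → ℂ)) (rs P (ξ : G → ℂ)) = 0 := by
    intro ξ hξ κ hκ θ₁ hθ₁ hne
    have htw := isCharacter_of_isIrrCharacter (isIrr_tw κ θ₁.2)
    have h1 := nn_expand hΩ hm htw (P := P)
    have h2 := nn_cast htw (isChar_rs (P := P) hΩ)
    rw [hrs, inner_Om_ne hP hp2 d' κ hκ θ₁ hθ₁ hne, ← hrs] at h2
    have h3 : nn (tw κ (θ₁ : Cn P → ℂ)) (rs P Ω) = 0 := by exact_mod_cast h2
    rw [h3] at h1
    have h4 := (Finset.sum_eq_zero_iff.mp h1.symm) ξ (Finset.mem_univ _)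
    exact (Nat.mul_eq_zero.mp h4).resolve_left hξ
  have hatrv : nn (trv (Cn P) : Cn P → ℂ) (rs P (trv G : G → ℂ)) = 1 := by
    have h1 := nn_cast (isCharacter_of_isIrrCharacter (trv (Cn P)).2)
      (isChar_rs (P := P) (isCharacter_of_isIrrCharacter (trv G).2))
    have h2 : rs P (trv G : G → ℂ) = (trv (Cn P) : Cn P → ℂ) := rfl
    rw [h2, classInner_irr (trv (Cn P)).2 (trv (Cn P)).2, if_pos rfl] at h1
    rw [h2]
    exact_mod_cast h1
  have hexpA := nn_expand hΩ hm (isCharacter_of_isIrrCharacter (trv (Cn P)).2) (P := P)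
  rw [hA, ← Finset.add_sum_erase _ _ (Finset.mem_univ (trv G)), hm1, hatrv] at hexpA
  have hB : ∀ d : DD P p, f ≤ 2 * nn (tw d.1 (trv (Cn P) : Cn P → ℂ)) (rs P Ω) + 1 := by
    intro d
    have htw := isCharacter_of_isIrrCharacter (isIrr_tw d.1 (trv (Cn P)).2)
    have h1 := nn_expand hΩ hm htw (P := P)
    rw [h1, hexpA, one_mul, add_comm, Finset.mul_sum]
    have h2 : ∑ x ∈ Finset.univ.erase (trv G), m x * nn (trv (Cn P) : Cn P → ℂ) (rs P (x : G → ℂ)) ≤
        ∑ i, 2 * (m i * nn (tw d.1 (trv (Cn P) : Cn P → ℂ)) (rs P (i : G → ℂ))) := by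
      calc _ ≤ ∑ x ∈ Finset.univ.erase (trv G), 2 * (m x * nn (tw d.1 (trv (Cn P) : Cn P → ℂ)) (rs P (x : G → ℂ))) := by
            refine Finset.sum_le_sum fun x hx => ?_
            by_cases hx0 : m x = 0
            · simp [hx0]
            · have h3 := key_ineq hP hp2 F hε hker x (Finset.ne_of_mem_erase hx) (hcon x hx0) d
              nlinarith
        _ ≤ _ := Finset.sum_le_sum_of_subset (Finset.erase_subset _ _)
    omega
  have hsumB : (p - 1) * f ≤ 2 * ∑ d : DD P p, nn (tw d.1 (trv (Cn P) : Cn P → ℂ)) (rs P Ω) + (p - 1) := by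
    have hcard : Fintype.card (DD P p) = p - 1 := by
      rw [← Nat.card_eq_fintype_card, card_DD hP hp2]
    calc (p - 1) * f = ∑ _d : DD P p, f := by simp [hcard]
      _ ≤ ∑ d : DD P p, (2 * nn (tw d.1 (trv (Cn P) : Cn P → ℂ)) (rs P Ω) + 1) :=
          Finset.sum_le_sum fun d _ => hB d
      _ = _ := by simp [Finset.sum_add_distrib, Finset.mul_sum, hcard]
  rw [hA] at hsum
  by_cases hf1 : f = 1
  · exact Or.inl hf1
  · right
    have hf0 : f ≠ 0 := by
      rintro rfl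
      rw [zero_mul] at hf
      exact Nat.card_pos.ne' hf
    have hf2 : 2 ≤ f := by omega
    obtain ⟨q, hq⟩ : ∃ q, p - 1 = q := ⟨_, rfl⟩
    obtain ⟨g, rfl⟩ : ∃ g, f = g + 2 := ⟨f - 2, by omega⟩
    rw [hq] at hsumB ⊢
    by_contra hlt
    push Not at hlt
    nlinarith

end Family

end Cfsg.Agent.Lib.CharDeep.BrauerDeg
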