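import Cfsg.Agent.Lib.CharDeep.BrauerDeg.Small
import Cfsg.Agent.Lib.CharX.Conj

/-!
# Inner products of products of orbit characters on the centralizer
-/

set_option autoImplicit false
set_option linter.style.haveILetI false
set_option linter.unusedSectionVars false

namespace Cfsg.Agent.Lib.CharDeep.BrauerDeg

open Cfsg
open Cfsg.Agent.Lib.Blocks.Local Cfsg.Agent.Lib.Blocks.Central Cfsg.Agent.Lib.Blocks.General
open Cfsg.Agent.Lib.Blocks.Induced
open Cfsg.Agent.Lib.Char.Induced Cfsg.Agent.Lib.Char.Ortho Cfsg.Agent.Lib.Char.Linear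
open Cfsg.Agent.Lib.Char.Basic Cfsg.Agent.Lib.Char.GenLattice Cfsg.Agent.Lib.Char.Complete
open Cfsg.Agent.Lib.ExcP.Gram Cfsg.Agent.Lib.ExcP.Inst Cfsg.Agent.Lib.ExcP.Dual
open Cfsg.Agent.Lib.ModRep.Prime Cfsg.Agent.Lib.ModRep.ThGram Cfsg.Agent.Lib.ModRep.ThIdem
open Cfsg.Agent.Lib.ModRep.ThDeg Cfsg.Agent.Lib.ModRep.Numerics2 Cfsg.Agent.Lib.ModRep.BlockTh
open scoped ComplexConjugate

universe u

variable {G : Type u} [Group G] {p : ℕ} [hp : Fact p.Prime] {P : Subgroup G}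

/-- Conjugate of the value of a linear character. -/
theorem conj_hom [Fintype (Cn P)] (κ : Cn P →* ℂˣ) (c : Cn P) :
    conj ((κ c : ℂˣ) : ℂ) = ((κ⁻¹ c : ℂˣ) : ℂ) := by
  have h1 := char_inv_eq_conj (isCharacter_of_isIrrCharacter (isIrrCharacter_of_hom κ)) c
  rw [← h1, map_inv, MonoidHom.inv_apply]

section Family

variable [Fintype G] [Fintype (Cn P)] [Fintype (Nn P)]

/-- The orbit sum. -/
noncomputable def ob (P : Subgroup G) [Fintype (Nn P)] (κ : Cn P →* ℂˣ) (θ : Cn P → ℂ) : Cn P → ℂ :=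
  fun c => (Nat.card (Cn P) : ℂ)⁻¹ * ∑ y : Nn P, tw κ θ (cjH P y c)

/-- The product of two orbit sums, tested against a twist. -/
theorem inner_prod (hP : Nat.card P = p) (hp2 : ¬ p ^ 2 ∣ Nat.card G) (κ : Cn P →* ℂˣ) (hκ : ∀ x, κ x ^ p = 1)
    {θ₁ : Cn P → ℂ} (hθ₁ : IsIrrCharacter (Cn P) θ₁) (hθ₁P : ∀ x : Cn P, (x : G) ∈ P → θ₁ x = θ₁ 1)
    {a b : Cn P →* ℂˣ} (ha : ∀ x, a x ^ p = 1) (hb : ∀ x, b x ^ p = 1) {θ θ' : Cn P → ℂ}
    (hθ : IsIrrCharacter (Cn P) θ) (hθP : ∀ x : Cn P, (x : G) ∈ P → θ x = θ 1)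
    (hθ' : IsIrrCharacter (Cn P) θ') (hθ'P : ∀ x : Cn P, (x : G) ∈ P → θ' x = θ' 1) :
    open scoped Classical in
    classInner (tw κ θ₁) (fun c => ob P a θ c * conj (ob P b θ' c)) =
      ((Nat.card (Cn P) : ℂ)⁻¹) ^ 2 * ∑ y : Nn P, ∑ z : Nn P,
        (if κ = cj P y a * (cj P z b)⁻¹ then 1 else 0) *
          classInner θ₁ (fun c => cjt P y θ c * conj (cjt P z θ' c)) := by
  classical
  obtain ⟨K, hK, hcard, hidx⟩ := exists_complement (P := P) hP hp2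
  have hprod : (fun c => ob P a θ c * conj (ob P b θ' c)) = ((((Nat.card (Cn P) : ℂ)⁻¹) ^ 2) •
      ∑ y : Nn P, ∑ z : Nn P, fun c => tw a θ (cjH P y c) * conj (tw b θ' (cjH P z c)) : Cn P → ℂ) := by
    funext c
    simp only [ob, map_mul, map_inv₀, map_natCast, map_sum, Pi.smul_apply, Finset.sum_apply, smul_eq_mul]
    rw [mul_mul_mul_comm, Finset.sum_mul_sum, sq]
  rw [hprod, classInner_smul_right, classInner_sum_right, map_pow, map_inv₀, map_natCast]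
  congr 1
  refine Finset.sum_congr rfl fun y _ => ?_
  rw [classInner_sum_right]
  refine Finset.sum_congr rfl fun z _ => ?_
  -- the factorization
  have h1 : (fun c => tw a θ (cjH P y c) * conj (tw b θ' (cjH P z c))) =
      fun c => (((cj P y a * (cj P z b)⁻¹) c : ℂˣ) : ℂ) * (cjt P y θ c * conj (cjt P z θ' c)) := by
    funext c
    simp only [tw, map_mul, cjt_apply, conj_hom, MonoidHom.mul_apply, Units.val_mul, cj_apply]
    have h2 : (((cj P z b)⁻¹ c : ℂˣ) : ℂ) = ((b⁻¹ (cjH P z c) : ℂˣ) : ℂ) := by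
      simp [cj_apply]
    rw [h2]
    ring
  rw [h1]
  have hA : ∀ x, (cj P y a * (cj P z b)⁻¹) x ^ p = 1 := by
    intro x
    rw [MonoidHom.mul_apply, mul_pow, MonoidHom.inv_apply, inv_pow, cj_apply, cj_apply, ha, hb]
    simp
  have h2 := classInner_mul_mul hP hcard hidx (f₁ := fun c => ((κ c : ℂˣ) : ℂ))
    (f₂ := fun c => (((cj P y a * (cj P z b)⁻¹) c : ℂˣ) : ℂ)) (g₁ := θ₁)
    (g₂ := fun c => cjt P y θ c * conj (cjt P z θ' c))
    (fun c v hv => by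
      simp only [map_mul, hom_eq_one_of_mem hcard hκ hv, mul_one])
    (fun c v hv => by
      simp only [map_mul, hom_eq_one_of_mem hcard hA hv, mul_one])
    (fun c hc d => irr_mul_of_mem hθ₁ hθ₁P hc d)
    (fun c hc d => by
      simp only [irr_mul_of_mem (isIrr_cjt y hθ) (cjt_ker hθP y) hc d,
        irr_mul_of_mem (isIrr_cjt z hθ') (cjt_ker hθ'P z) hc d])
  have h3 : tw κ θ₁ = fun c => ((κ c : ℂˣ) : ℂ) * θ₁ c := rfl
  rw [h3, h2]
  congr 1
  exact classInner_ch_ch κ _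

end Family

end Cfsg.Agent.Lib.CharDeep.BrauerDeg
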