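import Cfsg.Agent.Lib.CharDeep.BrauerDeg.Fam

/-!
# Irreducible characters of small degree restricted to the centralizer

`P` has order `p`, `p ^ 2 ∤ |G|`.  An irreducible character `ξ` with `2 ξ(1) + 1 < p`, non-trivial on `P`,
restricts to `C_G(P)` as a single orbit of `N_G(P)`, each with multiplicity one.
-/

set_option autoImplicit false
set_option linter.style.haveILetI false
set_option linter.unusedSectionVars false

namespace Cfsg.Agent.Lib.CharDeep.BrauerDeg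

open Cfsg
open Cfsg.Agent.Lib.Blocks.Local Cfsg.Agent.Lib.Blocks.Central Cfsg.Agent.Lib.Blocks.General
open Cfsg.Agent.Lib.Blocks.Induced
open Cfsg.Agent.Lib.Char.Induced Cfsg.Agent.Lib.Char.Ortho Cfsg.Agent.Lib.Char.Linear
open Cfsg.Agent.Lib.Char.Basic Cfsg.Agent.Lib.Char.GenLattice Cfsg.Agent.Lib.Char.Complete
open Cfsg.Agent.Lib.ExcP.Gram Cfsg.Agent.Lib.ExcP.Inst Cfsg.Agent.Lib.ExcP.Dual
open Cfsg.Agent.Lib.ModRep.Prime Cfsg.Agent.Lib.ModRep.ThGram Cfsg.Agent.Lib.ModRep.ThIdem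
open Cfsg.Agent.Lib.ModRep.ThDeg Cfsg.Agent.Lib.ModRep.Numerics2 Cfsg.Agent.Lib.ModRep.BlockTh
open scoped ComplexConjugate

universe u

variable {G : Type u} [Group G] {p : ℕ} [hp : Fact p.Prime] {P : Subgroup G}

theorem cjt_mul (y z : Nn P) (θ : Cn P → ℂ) : cjt P (y * z) θ = cjt P y (cjt P z θ) := by
  funext c
  rw [cjt_apply, cjt_apply, cjt_apply]
  congr 1
  apply Subtype.ext
  simp only [coe_cjH, Subgroup.coe_mul]
  group

theorem cjt_one (θ : Cn P → ℂ) : cjt P 1 θ = θ := by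
  funext c
  rw [cjt_apply]
  congr 1
  apply Subtype.ext
  simp

/-- Uniqueness of the decomposition of a twist. -/
theorem tw_inj [Finite G] (hP : Nat.card P = p) (hp2 : ¬ p ^ 2 ∣ Nat.card G) {κ κ' : Cn P →* ℂˣ}
    (hκ : ∀ x, κ x ^ p = 1) (hκ' : ∀ x, κ' x ^ p = 1) {θ θ' : Cn P → ℂ} (hθ1 : θ 1 ≠ 0)
    (hθP : ∀ x : Cn P, (x : G) ∈ P → θ x = θ 1) (hθ'P : ∀ x : Cn P, (x : G) ∈ P → θ' x = θ' 1)
    (h : tw κ θ = tw κ' θ') : κ = κ' ∧ θ = θ' := by
  have h1 : θ 1 = θ' 1 := by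
    have := congrFun h 1
    simpa [tw] using this
  have h2 : κ = κ' := by
    have h3 : κ * κ'⁻¹ = 1 := by
      apply eq_one_of_trivial_on hP hp2
      · intro x
        rw [MonoidHom.mul_apply, mul_pow, MonoidHom.inv_apply, inv_pow, hκ, hκ']
        simp
      · intro x hx
        have h4 := congrFun h x
        simp only [tw, hθP x hx, hθ'P x hx, ← h1] at h4
        have h5 := mul_right_cancel₀ hθ1 h4
        have h6 : κ x = κ' x := Units.ext h5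
        rw [MonoidHom.mul_apply, MonoidHom.inv_apply, h6, mul_inv_cancel]
    exact mul_inv_eq_one.mp h3
  refine ⟨h2, ?_⟩
  funext c
  have h4 := congrFun h c
  simp only [tw, h2] at h4
  exact mul_left_cancel₀ (Units.ne_zero _) h4

section Family

variable [Fintype G] [Fintype (Cn P)] [Fintype (Nn P)] [Fintype (DD P p)] [Fintype (IrrCharacter G)]
  [Fintype (IrrCharacter (Cn P))] {M : Ideal AlgInt}

/-- The inner product of `Ws` with an irreducible character. -/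
theorem inner_fam {θ : IrrCharacter (Cn P)} (F : Fam M P p θ) (d : DD P p) (j : IrrCharacter G) :
    open scoped Classical in
    classInner (Ws P (θ : Cn P → ℂ) d.1) (j : G → ℂ) =
      - (if j ∈ F.X then (F.εX j : ℂ) else 0) + (if F.ν d = j then (F.ε : ℂ) else 0) := by
  classical
  have h1 : Ws P (θ : Cn P → ℂ) d.1 = (- (∑ χ ∈ F.X, (F.εX χ : ℂ) • (χ : G → ℂ))) + (F.ε : ℂ) • (F.ν d : G → ℂ) := by
    funext g
    rw [F.hval d g]
    simp [Finset.sum_apply]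
  have hirr : ∀ a b : IrrCharacter G, classInner (a : G → ℂ) (b : G → ℂ) = if a = b then 1 else 0 := by
    intro a b
    rw [classInner_irr a.2 b.2]
    by_cases hab : a = b
    · rw [if_pos hab, if_pos (congrArg _ hab)]
    · rw [if_neg hab, if_neg (fun h => hab (Subtype.ext h))]
  rw [h1, classInner_add_left, classInner_neg_left, classInner_sum_left, classInner_smul_left, hirr]
  congr 2
  · simp only [classInner_smul_left, hirr, mul_ite, mul_one, mul_zero, Finset.sum_ite_eq']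
  · split_ifs <;> simp

/-- The relation between multiplicities. -/
theorem mult_rel {θ : IrrCharacter (Cn P)} (F : Fam M P p θ) (d : DD P p) (ξ : IrrCharacter G) :
    open scoped Classical in
    (nn (tw d.1 (θ : Cn P → ℂ)) (rs P (ξ : G → ℂ)) : ℤ) = nn (θ : Cn P → ℂ) (rs P (ξ : G → ℂ)) +
      (- (if ξ ∈ F.X then F.εX ξ else 0)) + (if F.ν d = ξ then F.ε else 0) := by
  classical
  have hξ := isCharacter_of_isIrrCharacter ξ.2
  have h1 := classInner_Ws_eq (θ : Cn P → ℂ) d.1 (isClassFunction_of_isCharacter hξ)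
  rw [inner_fam F d ξ, ← nn_cast (isCharacter_of_isIrrCharacter (isIrr_tw d.1 θ.2)) (isChar_rs hξ),
    ← nn_cast (isCharacter_of_isIrrCharacter θ.2) (isChar_rs hξ)] at h1
  have h2 : (((- (if ξ ∈ F.X then F.εX ξ else 0) + (if F.ν d = ξ then F.ε else 0) : ℤ)) : ℂ) =
      ((nn (tw d.1 (θ : Cn P → ℂ)) (rs P (ξ : G → ℂ)) : ℤ) - (nn (θ : Cn P → ℂ) (rs P (ξ : G → ℂ)) : ℤ) : ℤ) := by
    push_cast
    rw [← h1]
  have h3 := Int.cast_injective h2
  omega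

/-- The irreducible character `tw κ θ`. -/
noncomputable def twI (κ : Cn P →* ℂˣ) (θ : IrrCharacter (Cn P)) : IrrCharacter (Cn P) :=
  ⟨tw κ (θ : Cn P → ℂ), isIrr_tw κ θ.2⟩

/-- The bound by the degree. -/
theorem sum_mult_le (hP : Nat.card P = p) (hp2 : ¬ p ^ 2 ∣ Nat.card G) {ξ : G → ℂ} (hξ : IsCharacter G ξ)
    {n : ℕ} (hn : ξ 1 = n) (θ : IrrCharacter (Cn P))
    (hθP : ∀ x : Cn P, (x : G) ∈ P → (θ : Cn P → ℂ) x = (θ : Cn P → ℂ) 1) :
    nn (θ : Cn P → ℂ) (rs P ξ) + ∑ d : DD P p, nn (tw d.1 (θ : Cn P → ℂ)) (rs P ξ) ≤ n := by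
  classical
  let f : Option (DD P p) → IrrCharacter (Cn P) := fun o => match o with
    | none => θ
    | some d => twI d.1 θ
  have hθ1 : (θ : Cn P → ℂ) 1 ≠ 0 := irr_one_ne_zero θ.2
  have hf : Function.Injective f := by
    have hone : ∀ d : DD P p, twI d.1 θ ≠ θ := by
      intro d hd
      have h1 : tw d.1 (θ : Cn P → ℂ) = tw (1 : Cn P →* ℂˣ) (θ : Cn P → ℂ) := by
        have h2 := congrArg Subtype.val hd
        funext c
        have h3 := congrFun h2 c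
        simpa [twI, tw] using h3
      exact d.2.2 (tw_inj hP hp2 d.2.1 (by simp) hθ1 hθP hθP h1).1
    rintro (_ | a) (_ | b) h
    · rfl
    · exact absurd h.symm (hone b)
    · exact absurd h (hone a)
    · have h1 : tw a.1 (θ : Cn P → ℂ) = tw b.1 (θ : Cn P → ℂ) := congrArg Subtype.val h
      have h2 := (tw_inj hP hp2 a.2.1 b.2.1 hθ1 hθP hθP h1).1
      rw [show a = b from Subtype.ext h2]
  have h1 := sum_nn_le (isChar_rs (P := P) hξ) f hf (N := n) (by simpa [rs] using hn)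
  rw [Fintype.sum_option] at h1
  exact h1

/-- The main analysis of a small character. -/
theorem small_mult (hP : Nat.card P = p) (hp2 : ¬ p ^ 2 ∣ Nat.card G) {θ : IrrCharacter (Cn P)}
    (hθP : ∀ x : Cn P, (x : G) ∈ P → (θ : Cn P → ℂ) x = (θ : Cn P → ℂ) 1) (F : Fam M P p θ)
    (ξ : IrrCharacter G) (hsmall : 2 * charDegree (ξ : G → ℂ) + 1 ≤ p) (d : DD P p)
    (hd : nn (tw d.1 (θ : Cn P → ℂ)) (rs P (ξ : G → ℂ)) ≠ 0) :
    F.ν d = ξ ∧ F.ε = 1 ∧ nn (θ : Cn P → ℂ) (rs P (ξ : G → ℂ)) = 0 ∧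
      nn (tw d.1 (θ : Cn P → ℂ)) (rs P (ξ : G → ℂ)) = 1 := by
  classical
  have hξ := isCharacter_of_isIrrCharacter ξ.2
  have hcard : Fintype.card (DD P p) = p - 1 := by
    rw [← Nat.card_eq_fintype_card, card_DD hP hp2]
  refine comb F.ν ξ p _ _ (fun d => nn (tw d.1 (θ : Cn P → ℂ)) (rs P (ξ : G → ℂ)))
    (- (if ξ ∈ F.X then F.εX ξ else 0)) F.ε hcard hsmall hp.out.two_le
    (sum_mult_le hP hp2 hξ (Cfsg.Agent.Lib.Char.Degree.charDegree_natCast hξ).symm θ hθP) F.hε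
    (fun d => by convert mult_rel F d ξ) ?_ ?_ d hd
  · intro d hd
    have h1 : ξ ∈ F.Y := (F.hY ξ).mpr ⟨d, hd⟩
    have h2 : ξ ∉ F.X := fun h => Finset.disjoint_left.mp F.hdisj h h1
    simp [h2]
  · intro d₁ d₂ hne
    have h1 : (Finset.univ.filter (fun d => F.ν d = F.ν d₂)).card = F.e := by
      rw [← F.hcls d₂, Nat.card_eq_fintype_card, Fintype.card_subtype]
      congr 1
      ext a
      simp [F.hν]
    rw [h1]
    have h2 : 2 ≤ F.Y.card := by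
      have h3 : ({F.ν d₁, F.ν d₂} : Finset (IrrCharacter G)) ⊆ F.Y := by
        intro a ha
        simp only [Finset.mem_insert, Finset.mem_singleton] at ha
        rcases ha with rfl | rfl
        · exact (F.hY _).mpr ⟨_, rfl⟩
        · exact (F.hY _).mpr ⟨_, rfl⟩
      have h4 := Finset.card_le_card h3
      rwa [Finset.card_pair hne] at h4
    rw [← F.hYe]
    exact Nat.mul_le_mul_right _ h2

/-- A character non-trivial on `P` has a constituent non-trivial on `P`. -/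
theorem exists_pair (hP : Nat.card P = p) (hp2 : ¬ p ^ 2 ∣ Nat.card G) {ξ : G → ℂ} (hξ : IsCharacter G ξ)
    (h : ∃ x ∈ P, ξ x ≠ ξ 1) :
    ∃ (θ : IrrCharacter (Cn P)) (d : DD P p), (∀ x : Cn P, (x : G) ∈ P → (θ : Cn P → ℂ) x = (θ : Cn P → ℂ) 1) ∧
      nn (tw d.1 (θ : Cn P → ℂ)) (rs P ξ) ≠ 0 := by
  classical
  by_contra hcon
  push Not at hcon
  obtain ⟨x, hx, hne⟩ := h
  apply hne
  obtain ⟨m, hm⟩ := exists_nat_combination (isChar_rs (P := P) hξ)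
  have hxC : x ∈ Cn P := le_centralizer hP hx
  have h1 : ∀ c : Cn P, ξ c = ∑ i, (m i : ℂ) * (i : Cn P → ℂ) c := by
    intro c
    have h2 := congrFun hm c
    rw [Finset.sum_apply] at h2
    simpa [rs] using h2
  have h2 : ∀ i : IrrCharacter (Cn P), m i ≠ 0 → (i : Cn P → ℂ) ⟨x, hxC⟩ = (i : Cn P → ℂ) 1 := by
    intro i hi
    obtain ⟨κ, θ', hκ, hθ', hdec⟩ := exists_decomp hP hp2 i
    by_cases hκ1 : κ = 1
    · rw [hdec, hdec, hκ1]
      simp [hθ' ⟨x, hxC⟩ hx]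
    · exfalso
      apply hi
      have h3 := hcon θ' ⟨κ, hκ, hκ1⟩ hθ'
      have h4 : (i : Cn P → ℂ) = tw κ (θ' : Cn P → ℂ) := by
        funext c
        exact hdec c
      have h5 := nn_cast (isCharacter_of_isIrrCharacter i.2) (isChar_rs (P := P) hξ)
      rw [h4, h3, ← h4] at h5
      have h6 : classInner (rs P ξ) (i : Cn P → ℂ) = (m i : ℂ) := by
        rw [hm]
        exact classInner_of_nat_combination m i
      have h7 := classInner_conj (i : Cn P → ℂ) (rs P ξ)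
      rw [← h5, map_natCast] at h7
      rw [← h7] at h6
      have h8 : (m i : ℂ) = ((0 : ℕ) : ℂ) := h6.symm
      exact_mod_cast h8
  have h3 := h1 ⟨x, hxC⟩
  have h4 := h1 1
  have h5 : ξ x = ξ ((1 : Cn P) : G) := by
    show ξ ((⟨x, hxC⟩ : Cn P) : G) = _
    rw [h3, h4]
    refine Finset.sum_congr rfl fun i _ => ?_
    by_cases hi : m i = 0
    · simp [hi]
    · rw [h2 i hi]
  simpa using h5

/-- Two characters `θ` giving the same block are conjugate. -/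
theorem exists_conj_of_mem {M : Ideal AlgInt} (hM : IsPModular p M) (hP : Nat.card P = p)
    (hp2 : ¬ p ^ 2 ∣ Nat.card G) {θ θ' : IrrCharacter (Cn P)}
    (hθP : ∀ x : Cn P, (x : G) ∈ P → (θ : Cn P → ℂ) x = (θ : Cn P → ℂ) 1)
    (hθ'P : ∀ x : Cn P, (x : G) ∈ P → (θ' : Cn P → ℂ) x = (θ' : Cn P → ℂ) 1)
    (F : Fam M P p θ) (F' : Fam M P p θ') {ξ : IrrCharacter G} (h : ξ ∈ F.B) (h' : ξ ∈ F'.B) :
    ∃ y : Nn P, cjt P y (θ : Cn P → ℂ) = (θ' : Cn P → ℂ) := by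
  classical
  haveI := isPrime_of_pModular hM
  have h1 : F.B = blockOf M (ξ : G → ℂ) := isPBlock_eq_blockOf F.hind.2.1 h
  have h2 : F'.B = blockOf M (ξ : G → ℂ) := isPBlock_eq_blockOf F'.hind.2.1 h'
  have h3 := F.hind
  have h4 := F'.hind
  rw [h1] at h3
  rw [h2] at h4
  obtain ⟨y, hy⟩ := exists_cjI_eq hM hP hp2 hθP hθ'P h3 h4
  exact ⟨y, congrArg Subtype.val hy⟩

/-- Small characters have no constituent with `P` in the kernel, if they are non-trivial on `P`. -/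
theorem triv_zero {M : Ideal AlgInt} (hM : IsPModular p M) (hP : Nat.card P = p) (hp2 : ¬ p ^ 2 ∣ Nat.card G)
    (ξ : IrrCharacter G) (hsmall : 2 * charDegree (ξ : G → ℂ) + 1 ≤ p) {θ : IrrCharacter (Cn P)}
    (hθP : ∀ x : Cn P, (x : G) ∈ P → (θ : Cn P → ℂ) x = (θ : Cn P → ℂ) 1) (d : DD P p)
    (hd : nn (tw d.1 (θ : Cn P → ℂ)) (rs P (ξ : G → ℂ)) ≠ 0) (θ₂ : IrrCharacter (Cn P))
    (hθ₂P : ∀ x : Cn P, (x : G) ∈ P → (θ₂ : Cn P → ℂ) x = (θ₂ : Cn P → ℂ) 1) :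
    nn (θ₂ : Cn P → ℂ) (rs P (ξ : G → ℂ)) = 0 := by
  classical
  have hξ := isCharacter_of_isIrrCharacter ξ.2
  obtain ⟨F⟩ := exists_fam hM hP hp2 θ hθP
  obtain ⟨F₂⟩ := exists_fam hM hP hp2 θ₂ hθ₂P
  obtain ⟨h1, -, h3, -⟩ := small_mult hP hp2 hθP F ξ hsmall d hd
  have hmem : ξ ∈ F.B := by
    rw [F.hB, Finset.mem_union]
    exact Or.inr ((F.hY ξ).mpr ⟨d, h1⟩)
  by_cases hmem₂ : ξ ∈ F₂.B
  · obtain ⟨y, hy⟩ := exists_conj_of_mem hM hP hp2 hθP hθ₂P F F₂ hmem hmem₂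
    have h4 : classInner (θ₂ : Cn P → ℂ) (rs P (ξ : G → ℂ)) = classInner (θ : Cn P → ℂ) (rs P (ξ : G → ℂ)) := by
      rw [← hy]
      exact classInner_cjt_rs (isClassFunction_of_isCharacter hξ) y _
    have h5 := nn_cast (isCharacter_of_isIrrCharacter θ₂.2) (isChar_rs (P := P) hξ)
    have h6 := nn_cast (isCharacter_of_isIrrCharacter θ.2) (isChar_rs (P := P) hξ)
    rw [← h5, ← h6, h3] at h4
    exact_mod_cast h4
  · -- the multiplicities are all equal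
    have hnotX : ξ ∉ F₂.X ∧ ξ ∉ F₂.Y := by
      rw [F₂.hB, Finset.mem_union] at hmem₂
      exact not_or.mp hmem₂
    have heq : ∀ d' : DD P p, nn (tw d'.1 (θ₂ : Cn P → ℂ)) (rs P (ξ : G → ℂ)) = nn (θ₂ : Cn P → ℂ) (rs P (ξ : G → ℂ)) := by
      intro d'
      have h4 := mult_rel F₂ d' ξ
      have h5 : F₂.ν d' ≠ ξ := fun h => hnotX.2 ((F₂.hY ξ).mpr ⟨d', h⟩)
      rw [if_neg hnotX.1, if_neg h5] at h4
      simp only [neg_zero, add_zero] at h4
      exact_mod_cast h4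
    have h4 := sum_mult_le hP hp2 hξ (Cfsg.Agent.Lib.Char.Degree.charDegree_natCast hξ).symm θ₂ hθ₂P
    simp only [heq, Finset.sum_const, Finset.card_univ, smul_eq_mul] at h4
    rw [← Nat.card_eq_fintype_card, card_DD hP hp2] at h4
    by_contra hne
    have h5 : 1 ≤ nn (θ₂ : Cn P → ℂ) (rs P (ξ : G → ℂ)) := Nat.one_le_iff_ne_zero.mpr hne
    have h6 : p - 1 ≤ (p - 1) * nn (θ₂ : Cn P → ℂ) (rs P (ξ : G → ℂ)) := Nat.le_mul_of_pos_right _ h5
    have := hp.out.two_le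
    omega

/-- The multiplicities in a small character. -/
theorem mult_eq {M : Ideal AlgInt} (hM : IsPModular p M) (hP : Nat.card P = p) (hp2 : ¬ p ^ 2 ∣ Nat.card G)
    (ξ : IrrCharacter G) (hsmall : 2 * charDegree (ξ : G → ℂ) + 1 ≤ p) {θ : IrrCharacter (Cn P)}
    (hθP : ∀ x : Cn P, (x : G) ∈ P → (θ : Cn P → ℂ) x = (θ : Cn P → ℂ) 1) (d₀ : DD P p)
    (hd₀ : nn (tw d₀.1 (θ : Cn P → ℂ)) (rs P (ξ : G → ℂ)) ≠ 0) (κ₁ : Cn P →* ℂˣ) (hκ₁ : ∀ x, κ₁ x ^ p = 1)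
    (θ₁ : IrrCharacter (Cn P)) (hθ₁P : ∀ x : Cn P, (x : G) ∈ P → (θ₁ : Cn P → ℂ) x = (θ₁ : Cn P → ℂ) 1) :
    open scoped Classical in
    nn (tw κ₁ (θ₁ : Cn P → ℂ)) (rs P (ξ : G → ℂ)) =
      if ∃ y : Nn P, κ₁ = cj P y d₀.1 ∧ (θ₁ : Cn P → ℂ) = cjt P y (θ : Cn P → ℂ) then 1 else 0 := by
  classical
  have hξ := isCharacter_of_isIrrCharacter ξ.2
  have hcf := isClassFunction_of_isCharacter hξ
  obtain ⟨F⟩ := exists_fam hM hP hp2 θ hθP
  obtain ⟨h1, -, -, h4⟩ := small_mult hP hp2 hθP F ξ hsmall d₀ hd₀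
  have hmem : ξ ∈ F.B := by
    rw [F.hB, Finset.mem_union]
    exact Or.inr ((F.hY ξ).mpr ⟨d₀, h1⟩)
  have hnn_eq : ∀ (a b : Cn P → ℂ), classInner a (rs P (ξ : G → ℂ)) = classInner b (rs P (ξ : G → ℂ)) →
      nn a (rs P (ξ : G → ℂ)) = nn b (rs P (ξ : G → ℂ)) := by
    intro a b hab
    rw [nn, nn, hab]
  split_ifs with hex
  · obtain ⟨y, hy1, hy2⟩ := hex
    rw [← h4]
    apply hnn_eq
    rw [hy1, hy2, ← cjt_tw]
    exact classInner_cjt_rs hcf y _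
  · by_contra hne
    apply hex
    have hκ1 : κ₁ ≠ 1 := by
      rintro rfl
      apply hne
      have h5 := triv_zero hM hP hp2 ξ hsmall hθP d₀ hd₀ θ₁ hθ₁P
      have h6 : tw (1 : Cn P →* ℂˣ) (θ₁ : Cn P → ℂ) = (θ₁ : Cn P → ℂ) := by
        funext c
        simp [tw]
      rw [h6]
      exact h5
    let d₁ : DD P p := ⟨κ₁, hκ₁, hκ1⟩
    obtain ⟨F₁⟩ := exists_fam hM hP hp2 θ₁ hθ₁P
    obtain ⟨h5, -, -, -⟩ := small_mult hP hp2 hθ₁P F₁ ξ hsmall d₁ hne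
    have hmem₁ : ξ ∈ F₁.B := by
      rw [F₁.hB, Finset.mem_union]
      exact Or.inr ((F₁.hY ξ).mpr ⟨d₁, h5⟩)
    obtain ⟨y, hy⟩ := exists_conj_of_mem hM hP hp2 hθP hθ₁P F F₁ hmem hmem₁
    -- pull back by `y`
    let d' : DD P p := ⟨cj P y⁻¹ κ₁, cj_isD (p := p) d₁.2 y⁻¹⟩
    have hd' : nn (tw d'.1 (θ : Cn P → ℂ)) (rs P (ξ : G → ℂ)) ≠ 0 := by
      have h6 : nn (tw d'.1 (θ : Cn P → ℂ)) (rs P (ξ : G → ℂ)) = nn (tw κ₁ (θ₁ : Cn P → ℂ)) (rs P (ξ : G → ℂ)) := by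
        apply hnn_eq
        rw [← hy, ← classInner_cjt_rs hcf y (tw d'.1 (θ : Cn P → ℂ)), cjt_tw]
        congr 2
        show cj P y (cj P y⁻¹ κ₁) = κ₁
        rw [← cj_mul, mul_inv_cancel, cj_one]
      rw [h6]
      exact hne
    obtain ⟨h6, -, -, -⟩ := small_mult hP hp2 hθP F ξ hsmall d' hd'
    have h7 := (F.hν d' d₀).mp (h6.trans h1.symm)
    obtain ⟨u, hu, hu2⟩ := h7
    refine ⟨y * u, ?_, ?_⟩
    · rw [cj_mul, ← hu2]
      show κ₁ = cj P y (cj P y⁻¹ κ₁)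
      rw [← cj_mul, mul_inv_cancel, cj_one]
    · rw [cjt_mul, mem_stabN_iff.mp hu, hy]

/-- From multiplicities to values. -/
theorem form (hP : Nat.card P = p) (hp2 : ¬ p ^ 2 ∣ Nat.card G) {ξ : G → ℂ} (hξ : IsCharacter G ξ)
    (d₀ : DD P p) (θ : IrrCharacter (Cn P))
    (hθP : ∀ x : Cn P, (x : G) ∈ P → (θ : Cn P → ℂ) x = (θ : Cn P → ℂ) 1)
    (hmul : ∀ (κ₁ : Cn P →* ℂˣ), (∀ x, κ₁ x ^ p = 1) → ∀ θ₁ : IrrCharacter (Cn P),
      (∀ x : Cn P, (x : G) ∈ P → (θ₁ : Cn P → ℂ) x = (θ₁ : Cn P → ℂ) 1) →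
      open scoped Classical in
      nn (tw κ₁ (θ₁ : Cn P → ℂ)) (rs P ξ) =
        if ∃ y : Nn P, κ₁ = cj P y d₀.1 ∧ (θ₁ : Cn P → ℂ) = cjt P y (θ : Cn P → ℂ) then 1 else 0) (c : Cn P) :
    ξ c = (Nat.card (Cn P) : ℂ)⁻¹ * ∑ y : Nn P, tw d₀.1 (θ : Cn P → ℂ) (cjH P y c) := by
  classical
  have hθ1 : (θ : Cn P → ℂ) 1 ≠ 0 := irr_one_ne_zero θ.2
  have htwirr : IsIrrCharacter (Cn P) (tw d₀.1 (θ : Cn P → ℂ)) := isIrr_tw d₀.1 θ.2
  let Φ : Cn P → ℂ := fun c => (Nat.card (Cn P) : ℂ)⁻¹ * ∑ y : Nn P, tw d₀.1 (θ : Cn P → ℂ) (cjH P y c)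
  have hΦ : Φ = (Nat.card (Cn P) : ℂ)⁻¹ • ∑ y : Nn P, cjt P y (tw d₀.1 (θ : Cn P → ℂ)) := by
    funext c
    simp [Φ, Finset.sum_apply, cjt_apply]
  have hcls : IsClassFunction (Cn P) Φ := by
    rw [hΦ]
    apply isClassFunction_smul
    apply isClassFunction_sum
    intro y _
    exact isClassFunction_of_isIrrCharacter (isIrr_cjt y htwirr)
  have hext : rs P ξ = Φ := by
    apply classFunction_ext (isClassFunction_of_isCharacter (isChar_rs hξ)) hcls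
    intro χ hχ
    obtain ⟨κ₁, θ₁, hκ₁, hθ₁P, hdec⟩ := exists_decomp hP hp2 ⟨χ, hχ⟩
    have hχtw : χ = tw κ₁ (θ₁ : Cn P → ℂ) := by
      funext c
      exact hdec c
    have hθ₁1 : (θ₁ : Cn P → ℂ) 1 ≠ 0 := irr_one_ne_zero θ₁.2
    -- the left side
    have hL : classInner (rs P ξ) χ =
        if ∃ y : Nn P, κ₁ = cj P y d₀.1 ∧ (θ₁ : Cn P → ℂ) = cjt P y (θ : Cn P → ℂ) then 1 else 0 := by
      have h1 := nn_cast (isCharacter_of_isIrrCharacter hχ) (isChar_rs (P := P) hξ)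
      rw [hχtw, hmul κ₁ hκ₁ θ₁ hθ₁P] at h1
      rw [hχtw, ← classInner_conj, ← h1]
      split_ifs <;> simp
    rw [hL, hΦ, classInner_smul_left, classInner_sum_left]
    have hR : ∀ y : Nn P, classInner (cjt P y (tw d₀.1 (θ : Cn P → ℂ))) χ =
        if cj P y d₀.1 = κ₁ ∧ cjt P y (θ : Cn P → ℂ) = (θ₁ : Cn P → ℂ) then 1 else 0 := by
      intro y
      rw [classInner_irr (isIrr_cjt y htwirr) hχ, hχtw, cjt_tw]
      by_cases h1 : cj P y d₀.1 = κ₁ ∧ cjt P y (θ : Cn P → ℂ) = (θ₁ : Cn P → ℂ)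
      · rw [if_pos h1, if_pos (by rw [h1.1, h1.2])]
      · rw [if_neg h1, if_neg]
        intro h2
        apply h1
        refine tw_inj (κ := cj P y d₀.1) hP hp2 (fun x => d₀.2.1 _) hκ₁ ?_ (cjt_ker hθP y) hθ₁P h2
        rw [cjt_apply, map_one]
        exact hθ1
    simp only [hR]
    have hC0 : (Nat.card (Cn P) : ℂ) ≠ 0 := Nat.cast_ne_zero.mpr Nat.card_pos.ne'
    split_ifs with hex
    · obtain ⟨y₀, hy₁, hy₂⟩ := hex
      -- the set of `y`
      have hset : ∀ y : Nn P, (cj P y d₀.1 = κ₁ ∧ cjt P y (θ : Cn P → ℂ) = (θ₁ : Cn P → ℂ)) ↔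
          cj P y₀ d₀.1 = cj P y d₀.1 := by
        intro y
        constructor
        · rintro ⟨h1, -⟩
          rw [← hy₁, h1]
        · intro h1
          refine ⟨by rw [← h1, hy₁], ?_⟩
          rw [hy₂]
          -- `y₀⁻¹ y` centralizes
          have h2 : cj P (y₀⁻¹ * y) d₀.1 = d₀.1 := by
            rw [cj_mul, ← h1, ← cj_mul, inv_mul_cancel, cj_one]
          have h3 := mem_centralizer_of_cj_eq hP hp2 d₀.2.1 d₀.2.2 h2
          have h4 := mem_stabN_of_mem (isClassFunction_of_isIrrCharacter θ.2) h3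
          have h5 := mem_stabN_iff.mp h4
          have h6 : y = y₀ * (y₀⁻¹ * y) := by group
          rw [h6, cjt_mul, h5]
      simp only [hset]
      rw [Finset.sum_boole]
      have h1 : (Finset.univ.filter (fun y : Nn P => cj P y₀ d₀.1 = cj P y d₀.1)).card = Nat.card (Cn P) := by
        rw [← card_conj_eq hP hp2 d₀.2 y₀, Nat.card_eq_fintype_card, Fintype.card_subtype]
      rw [h1, inv_mul_cancel₀ hC0]
    · have h1 : ∀ y : Nn P, ¬ (cj P y d₀.1 = κ₁ ∧ cjt P y (θ : Cn P → ℂ) = (θ₁ : Cn P → ℂ)) := by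
        rintro y ⟨h2, h3⟩
        exact hex ⟨y, h2.symm, h3.symm⟩
      simp [h1]
  exact congrFun hext c

end Family

end Cfsg.Agent.Lib.CharDeep.BrauerDeg
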