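import Cfsg.Agent.Lib.CharDeep.BrauerDeg.Princ

/-!
# The periods `η` and the double sums `Z`

Computations with the sums over the normalizer.
-/

set_option autoImplicit false
set_option linter.style.haveILetI false
set_option linter.unusedSectionVars false

namespace Cfsg.Agent.Lib.CharDeep.BrauerDeg

open Cfsg
open Cfsg.Agent.Lib.Blocks.Local Cfsg.Agent.Lib.Blocks.Central Cfsg.Agent.Lib.Blocks.General
open Cfsg.Agent.Lib.Blocks.Induced
open Cfsg.Agent.Lib.Char.Induced Cfsg.Agent.Lib.Char.Ortho Cfsg.Agent.Lib.Char.Linear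
open Cfsg.Agent.Lib.Char.Basic Cfsg.Agent.Lib.Char.GenLattice Cfsg.Agent.Lib.Char.Complete
open Cfsg.Agent.Lib.ExcP.Gram Cfsg.Agent.Lib.ExcP.Inst Cfsg.Agent.Lib.ExcP.Dual
open Cfsg.Agent.Lib.ModRep.Prime Cfsg.Agent.Lib.ModRep.ThGram Cfsg.Agent.Lib.ModRep.ThIdem
open Cfsg.Agent.Lib.ModRep.ThDeg Cfsg.Agent.Lib.ModRep.Numerics2 Cfsg.Agent.Lib.ModRep.BlockTh
open scoped ComplexConjugate

universe u

variable {G : Type u} [Group G] {p : ℕ} [hp : Fact p.Prime] {P : Subgroup G}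

theorem cjH_cjH (u y : Nn P) (c : Cn P) : cjH P u (cjH P y c) = cjH P (y * u) c := by
  apply Subtype.ext
  simp only [coe_cjH, Subgroup.coe_mul]
  group

theorem cjt_inj (z : Nn P) {a b : Cn P → ℂ} (h : cjt P z a = cjt P z b) : a = b := by
  funext c
  obtain ⟨c', rfl⟩ := cjH_bijective P z c
  exact congrFun h c'

theorem cjH_mem (y : Nn P) {x : Cn P} (hx : (x : G) ∈ P) : ((cjH P y x : Cn P) : G) ∈ P := by
  have h1 := (Subgroup.mem_normalizer_iff.mp (y⁻¹ : Nn P).2 (x : G)).mp hx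
  simpa using h1

theorem cjH_ne_one (y : Nn P) {x : Cn P} (hx : x ≠ 1) : cjH P y x ≠ 1 := by
  intro h
  apply hx
  apply Subtype.ext
  have h1 : (y : G)⁻¹ * x * y = 1 := congrArg Subtype.val h
  have h2 : (x : G) = 1 := by
    have h3 : (x : G) = (y : G) * ((y : G)⁻¹ * x * y) * (y : G)⁻¹ := by group
    rw [h3, h1]
    group
  simpa using h2

section Sums

variable [Fintype (Nn P)]

open scoped Classical in
/-- The Kronecker delta of conjugates. -/
noncomputable def dl (P : Subgroup G) (θ : Cn P → ℂ) (y z : Nn P) : ℂ :=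
  if cjt P y θ = cjt P z θ then 1 else 0

/-- Twice the size of the stabilizer. -/
noncomputable def WW (P : Subgroup G) [Fintype (Nn P)] (θ : Cn P → ℂ) : ℂ := ∑ y : Nn P, dl P θ y 1

theorem dl_comm (θ : Cn P → ℂ) (y z : Nn P) : dl P θ y z = dl P θ z y := by
  classical
  simp only [dl, eq_comm]

theorem dl_mulLeft (θ : Cn P → ℂ) (z y : Nn P) : dl P θ y z = dl P θ (z⁻¹ * y) 1 := by
  classical
  have hiff : cjt P y θ = cjt P z θ ↔ cjt P (z⁻¹ * y) θ = cjt P 1 θ := by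
    constructor
    · intro h
      rw [cjt_mul, h, ← cjt_mul, inv_mul_cancel]
    · intro h
      rw [cjt_mul, cjt_one] at h
      have h2 : cjt P z⁻¹ (cjt P y θ) = cjt P z⁻¹ (cjt P z θ) := by
        rw [h, ← cjt_mul, inv_mul_cancel, cjt_one]
      exact cjt_inj _ h2
  unfold dl
  by_cases h : cjt P y θ = cjt P z θ
  · rw [if_pos h, if_pos (hiff.mp h)]
  · rw [if_neg h, if_neg (fun h' => h (hiff.mpr h'))]

theorem sum_dl_left (θ : Cn P → ℂ) (z : Nn P) : ∑ y : Nn P, dl P θ y z = WW P θ := by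
  classical
  rw [WW]
  exact Fintype.sum_equiv (Equiv.mulLeft z⁻¹) _ _ fun y => dl_mulLeft θ z y

theorem sum_dl_right (θ : Cn P → ℂ) (y : Nn P) : ∑ z : Nn P, dl P θ y z = WW P θ := by
  simp only [dl_comm θ y]
  exact sum_dl_left θ y

theorem WW_ne_zero (θ : Cn P → ℂ) : WW P θ ≠ 0 := by
  classical
  rw [WW]
  simp only [dl]
  rw [Finset.sum_boole]
  have h1 : (Finset.univ.filter (fun y : Nn P => cjt P y θ = cjt P 1 θ)).Nonempty := ⟨1, by simp⟩
  exact_mod_cast h1.card_pos.ne'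

end Sums

section Family

variable [Fintype G] [Fintype (Cn P)] [Fintype (Nn P)]

/-- The period. -/
noncomputable def eta (P : Subgroup G) [Fintype (Nn P)] (d₀ : Cn P →* ℂˣ) (x : Cn P) : ℂ :=
  (Nat.card (Cn P) : ℂ)⁻¹ * ∑ z : Nn P, ((d₀ (cjH P z x) : ℂˣ) : ℂ)

/-- The double sum. -/
noncomputable def zz (P : Subgroup G) [Fintype (Nn P)] (θ : Cn P → ℂ) (d d₀ : Cn P →* ℂˣ) (x : Cn P) : ℂ :=
  ((Nat.card (Cn P) : ℂ)⁻¹) ^ 2 * ∑ y : Nn P, ∑ z : Nn P, dl P θ y z *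
    (((d (cjH P y x) : ℂˣ) : ℂ) * conj ((d₀ (cjH P z x) : ℂˣ) : ℂ))

theorem card_ne_zero_Cn : (Nat.card (Cn P) : ℂ) ≠ 0 := Nat.cast_ne_zero.mpr Nat.card_pos.ne'

theorem zz_one (θ : Cn P → ℂ) (d d₀ : Cn P →* ℂˣ) {f : ℕ} (hf : Nat.card (Nn P) = f * Nat.card (Cn P)) :
    zz P θ d d₀ 1 = (Nat.card (Cn P) : ℂ)⁻¹ * f * WW P θ := by
  have hC := card_ne_zero_Cn (P := P)
  simp only [zz, map_one, Units.val_one, map_one, mul_one, sum_dl_right, Finset.sum_const, Finset.card_univ,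
    ← Nat.card_eq_fintype_card, hf, nsmul_eq_mul]
  push_cast
  field_simp

theorem sum_conj_eta (d₀ : Cn P →* ℂˣ) (x : Cn P) :
    ∑ z : Nn P, conj ((d₀ (cjH P z x) : ℂˣ) : ℂ) = (Nat.card (Cn P) : ℂ) * conj (eta P d₀ x) := by
  have hC := card_ne_zero_Cn (P := P)
  simp only [eta, map_mul, map_inv₀, map_natCast, map_sum]
  field_simp

/-- The values of the sum of all `d`. -/
theorem sum_DD_apply (hP : Nat.card P = p) (hp2 : ¬ p ^ 2 ∣ Nat.card G) [Fintype (DD P p)] {w : Cn P}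
    (hw : (w : G) ∈ P) (hw1 : w ≠ 1) : ∑ d : DD P p, ((d.1 w : ℂˣ) : ℂ) = -1 := by
  classical
  haveI : Fintype P := Fintype.ofFinite _
  have h1 := sum_DD (P := P) hP hp2 (⟨w, hw⟩ : P)
  have hne : (⟨(w : G), hw⟩ : P) ≠ 1 := by
    intro h
    apply hw1
    apply Subtype.ext
    have h2 : ((⟨(w : G), hw⟩ : P) : G) = ((1 : P) : G) := congrArg Subtype.val h
    simpa using h2
  rw [if_neg hne, Finset.sum_sub_distrib] at h1
  have hcard : Fintype.card (DD P p) = p - 1 := by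
    rw [← Nat.card_eq_fintype_card, card_DD hP hp2]
  simp only [Finset.sum_const, Finset.card_univ, hcard, nsmul_eq_mul, mul_one] at h1
  have hp1 : 1 ≤ p := hp.out.one_lt.le
  have h2 : (((p - 1 : ℕ)) : ℂ) = (p : ℂ) - 1 := by
    rw [Nat.cast_sub hp1]
    simp
  rw [h2] at h1
  have h3 : ∑ d : DD P p, ((d.1 w : ℂˣ) : ℂ) = ∑ d : DD P p, ((d.1 ⟨(w : G), le_centralizer hP hw⟩ : ℂˣ) : ℂ) := rfl
  rw [h3]
  linear_combination h1

/-- The sum over all `d`. -/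
theorem zz_all (hP : Nat.card P = p) (hp2 : ¬ p ^ 2 ∣ Nat.card G) [Fintype (DD P p)] (θ : Cn P → ℂ)
    (d₀ : Cn P →* ℂˣ) {x : Cn P} (hx : (x : G) ∈ P) (hx1 : x ≠ 1) :
    ∑ d : DD P p, zz P θ d.1 d₀ x = - ((Nat.card (Cn P) : ℂ)⁻¹ * WW P θ * conj (eta P d₀ x)) := by
  have hC := card_ne_zero_Cn (P := P)
  have h1 : ∀ y : Nn P, ∑ d : DD P p, ((d.1 (cjH P y x) : ℂˣ) : ℂ) = -1 := fun y =>
    sum_DD_apply hP hp2 (cjH_mem y hx) (cjH_ne_one y hx1)
  calc ∑ d : DD P p, zz P θ d.1 d₀ x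
      = ((Nat.card (Cn P) : ℂ)⁻¹) ^ 2 * ∑ y : Nn P, ∑ z : Nn P, dl P θ y z *
          ((∑ d : DD P p, ((d.1 (cjH P y x) : ℂˣ) : ℂ)) * conj ((d₀ (cjH P z x) : ℂˣ) : ℂ)) := by
        simp only [zz]
        rw [← Finset.mul_sum]
        congr 1
        rw [Finset.sum_comm]
        refine Finset.sum_congr rfl fun y _ => ?_
        rw [Finset.sum_comm]
        refine Finset.sum_congr rfl fun z _ => ?_
        rw [Finset.sum_mul, Finset.mul_sum]
    _ = - ((Nat.card (Cn P) : ℂ)⁻¹) ^ 2 * ∑ z : Nn P, (∑ y : Nn P, dl P θ y z) * conj ((d₀ (cjH P z x) : ℂˣ) : ℂ) := by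
        simp only [h1]
        have key : ∑ y : Nn P, ∑ z : Nn P, dl P θ y z * (-1 * conj ((d₀ (cjH P z x) : ℂˣ) : ℂ)) =
            - ∑ z : Nn P, (∑ y : Nn P, dl P θ y z) * conj ((d₀ (cjH P z x) : ℂˣ) : ℂ) := by
          rw [Finset.sum_comm, ← Finset.sum_neg_distrib]
          refine Finset.sum_congr rfl fun z _ => ?_
          rw [Finset.sum_mul, ← Finset.sum_neg_distrib]
          refine Finset.sum_congr rfl fun y _ => ?_
          ring
        rw [key]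
        ring
    _ = _ := by
        simp only [sum_dl_left]
        rw [← Finset.mul_sum, sum_conj_eta]
        field_simp

/-- The orbit of `d₀`. -/
noncomputable def orbF [Fintype (DD P p)] (d₀ : DD P p) : Finset (DD P p) :=
  open scoped Classical in
  Finset.univ.filter (fun d => ∃ u : Nn P, d.1 = cj P u d₀.1)

/-- Sum over the orbit as a sum over the normalizer. -/
theorem sum_orbF (hP : Nat.card P = p) (hp2 : ¬ p ^ 2 ∣ Nat.card G) [Fintype (DD P p)] (d₀ : DD P p)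
    (g : DD P p → ℂ) :
    ∑ d ∈ orbF d₀, g d = (Nat.card (Cn P) : ℂ)⁻¹ * ∑ u : Nn P, g ⟨cj P u d₀.1, cj_isD d₀.2 u⟩ := by
  classical
  have hC := card_ne_zero_Cn (P := P)
  let act : Nn P → DD P p := fun u => ⟨cj P u d₀.1, cj_isD d₀.2 u⟩
  have hmaps : ∀ u ∈ (Finset.univ : Finset (Nn P)), act u ∈ orbF d₀ := by
    intro u _
    simp only [orbF, Finset.mem_filter, Finset.mem_univ, true_and]
    exact ⟨u, rfl⟩
  have h1 := Finset.sum_fiberwise_of_maps_to hmaps (fun u => g (act u))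
  have h2 : ∀ d ∈ orbF d₀, ∑ u ∈ Finset.univ.filter (fun u => act u = d), g (act u) =
      (Nat.card (Cn P) : ℂ) * g d := by
    intro d hd
    simp only [orbF, Finset.mem_filter, Finset.mem_univ, true_and] at hd
    obtain ⟨u₀, hu₀⟩ := hd
    have h3 : Finset.univ.filter (fun u => act u = d) = Finset.univ.filter (fun u => cj P u₀ d₀.1 = cj P u d₀.1) := by
      ext u
      simp only [Finset.mem_filter, Finset.mem_univ, true_and, act, ← hu₀]
      constructor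
      · intro h
        have h4 := congrArg Subtype.val h
        exact h4.symm
      · intro h
        exact Subtype.ext h.symm
    have h4 : ((Finset.univ.filter (fun u => cj P u₀ d₀.1 = cj P u d₀.1)).card : ℂ) = (Nat.card (Cn P) : ℂ) := by
      rw [← card_conj_eq hP hp2 d₀.2 u₀, Nat.card_eq_fintype_card, Fintype.card_subtype]
    rw [← h4, ← h3, Finset.sum_congr rfl (g := fun _ => g d), Finset.sum_const, nsmul_eq_mul]
    intro u hu
    rw [(Finset.mem_filter.mp hu).2]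
  rw [Finset.sum_congr rfl h2, ← Finset.mul_sum] at h1
  change _ = (Nat.card (Cn P) : ℂ)⁻¹ * ∑ u : Nn P, g (act u)
  rw [← h1]
  field_simp

theorem card_orbF (hP : Nat.card P = p) (hp2 : ¬ p ^ 2 ∣ Nat.card G) [Fintype (DD P p)] (d₀ : DD P p)
    {f : ℕ} (hf : Nat.card (Nn P) = f * Nat.card (Cn P)) : (orbF d₀).card = f := by
  have hC := card_ne_zero_Cn (P := P)
  have h1 := sum_orbF hP hp2 d₀ (fun _ => (1 : ℂ))
  simp only [Finset.sum_const, nsmul_eq_mul, mul_one, Finset.card_univ, ← Nat.card_eq_fintype_card, hf] at h1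
  have h2 : ((orbF d₀).card : ℂ) = (f : ℂ) := by
    rw [h1]
    push_cast
    field_simp
  exact_mod_cast h2

/-- The sum over the orbit. -/
theorem zz_orb (hP : Nat.card P = p) (hp2 : ¬ p ^ 2 ∣ Nat.card G) [Fintype (DD P p)] (θ : Cn P → ℂ)
    (d₀ : DD P p) (x : Cn P) :
    ∑ d ∈ orbF d₀, zz P θ d.1 d₀.1 x =
      (Nat.card (Cn P) : ℂ)⁻¹ * WW P θ * (eta P d₀.1 x * conj (eta P d₀.1 x)) := by
  have hC := card_ne_zero_Cn (P := P)
  rw [sum_orbF hP hp2 d₀]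
  have h1 : ∀ y : Nn P, ∑ u : Nn P, ((cj P u d₀.1 (cjH P y x) : ℂˣ) : ℂ) = (Nat.card (Cn P) : ℂ) * eta P d₀.1 x := by
    intro y
    have h2 : ∀ u : Nn P, ((cj P u d₀.1 (cjH P y x) : ℂˣ) : ℂ) = ((d₀.1 (cjH P (y * u) x) : ℂˣ) : ℂ) := by
      intro u
      rw [cj_apply, cjH_cjH]
    simp only [h2, eta]
    rw [Fintype.sum_equiv (Equiv.mulLeft y) (fun u => ((d₀.1 (cjH P (y * u) x) : ℂˣ) : ℂ))
      (fun u => ((d₀.1 (cjH P u x) : ℂˣ) : ℂ)) (fun u => rfl)]
    field_simp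
  calc (Nat.card (Cn P) : ℂ)⁻¹ * ∑ u : Nn P, zz P θ (cj P u d₀.1) d₀.1 x
      = (Nat.card (Cn P) : ℂ)⁻¹ * (((Nat.card (Cn P) : ℂ)⁻¹) ^ 2 * ∑ y : Nn P, ∑ z : Nn P, dl P θ y z *
          ((∑ u : Nn P, ((cj P u d₀.1 (cjH P y x) : ℂˣ) : ℂ)) * conj ((d₀.1 (cjH P z x) : ℂˣ) : ℂ))) := by
        simp only [zz]
        rw [← Finset.mul_sum]
        congr 2
        rw [Finset.sum_comm]
        refine Finset.sum_congr rfl fun y _ => ?_
        rw [Finset.sum_comm]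
        refine Finset.sum_congr rfl fun z _ => ?_
        rw [Finset.sum_mul, Finset.mul_sum]
    _ = (Nat.card (Cn P) : ℂ)⁻¹ * (((Nat.card (Cn P) : ℂ)⁻¹) ^ 2 * ((Nat.card (Cn P) : ℂ) * eta P d₀.1 x *
          ∑ z : Nn P, (∑ y : Nn P, dl P θ y z) * conj ((d₀.1 (cjH P z x) : ℂˣ) : ℂ))) := by
        simp only [h1]
        congr 2
        rw [Finset.sum_comm, Finset.mul_sum]
        refine Finset.sum_congr rfl fun z _ => ?_
        rw [Finset.sum_mul, Finset.mul_sum]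
        refine Finset.sum_congr rfl fun y _ => ?_
        ring
    _ = _ := by
        simp only [sum_dl_left]
        rw [← Finset.mul_sum, sum_conj_eta]
        field_simp

/-- The equation of the period. -/
theorem eta_eq (hP : Nat.card P = p) (hp2 : ¬ p ^ 2 ∣ Nat.card G) [Fintype (DD P p)] (θ : Cn P → ℂ)
    (d₀ : DD P p) {f : ℕ} (hf : Nat.card (Nn P) = f * Nat.card (Cn P)) {x : Cn P} (hx : (x : G) ∈ P)
    (hx1 : x ≠ 1)
    (hZ : ∀ d : DD P p, d ∉ orbF d₀ → ((p - 1 : ℕ) : ℂ) * zz P θ d.1 d₀.1 x = - zz P θ d.1 d₀.1 1) :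
    conj (eta P d₀.1 x) = ((Finset.univ \ orbF d₀).card : ℂ) * f / ((p - 1 : ℕ) : ℂ) -
      eta P d₀.1 x * conj (eta P d₀.1 x) := by
  classical
  have hC := card_ne_zero_Cn (P := P)
  have hW := WW_ne_zero (P := P) θ
  have hp1 : ((p - 1 : ℕ) : ℂ) ≠ 0 := by
    have := hp.out.two_le
    exact Nat.cast_ne_zero.mpr (by omega)
  have h1 := zz_all hP hp2 θ d₀.1 hx hx1
  rw [← Finset.sum_sdiff (Finset.subset_univ (orbF d₀)), zz_orb hP hp2] at h1
  have h2 : ∀ d ∈ Finset.univ \ orbF d₀, zz P θ d.1 d₀.1 x =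
      - ((Nat.card (Cn P) : ℂ)⁻¹ * f * WW P θ) / ((p - 1 : ℕ) : ℂ) := by
    intro d hd
    have h3 := hZ d (Finset.mem_sdiff.mp hd).2
    rw [zz_one θ d.1 d₀.1 hf] at h3
    rw [eq_div_iff hp1]
    linear_combination h3
  rw [Finset.sum_congr rfl h2, Finset.sum_const, nsmul_eq_mul] at h1
  have h4 : (Nat.card (Cn P) : ℂ)⁻¹ * WW P θ ≠ 0 := mul_ne_zero (inv_ne_zero hC) hW
  apply mul_left_cancel₀ h4
  field_simp at h1 ⊢
  linear_combination h1

end Family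

end Cfsg.Agent.Lib.CharDeep.BrauerDeg
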